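import Mathlib
import Cfsg.Agent.Perm.HallFour2
import Cfsg.Agent.Perm.Witt
import Cfsg.Agent.Perm.Support
import Cfsg.Agent.Spor.SharpSimple

/-!
# A `k`-transitive group (`k ≥ 4`) induces at least the alternating group on some `(k+1)`-set
-/

set_option autoImplicit false

namespace Cfsg.Agent.Perm.LW

open MulAction Subgroup Equiv

variable {G X : Type*} [Group G] [MulAction G X]

/-- `σ` is induced on `Δ`. -/
def Ind (G : Type*) [Group G] [MulAction G X] (Δ : Finset X) (σ : Perm X) : Prop :=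
  ∃ g : G, ∀ x ∈ Δ, g • x = σ x

theorem Ind.mul {Δ : Finset X} {σ τ : Perm X} (h1 : Ind G Δ σ) (h2 : Ind G Δ τ)
    (hτ : ∀ x ∈ Δ, τ x ∈ Δ) : Ind G Δ (σ * τ) := by
  obtain ⟨g, hg⟩ := h1
  obtain ⟨k, hk⟩ := h2
  exact ⟨g * k, fun x hx => by rw [mul_smul, hk x hx, hg _ (hτ x hx), Perm.mul_apply]⟩

theorem mem_of_fix {Δ : Finset X} {σ : Perm X} (h : ∀ x ∉ Δ, σ x = x) {x : X} (hx : x ∈ Δ) :
    σ x ∈ Δ := by
  by_contra hc
  exact hc ((σ.injective (h _ hc)).symm ▸ hx)

variable [DecidableEq X]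

theorem swap_mem {Δ : Finset X} {u v : X} (hu : u ∈ Δ) (hv : v ∈ Δ) :
    ∀ x ∈ Δ, swap u v x ∈ Δ := fun x hx => by
  rw [swap_apply_def]; split_ifs <;> assumption

theorem ind_of_star {Δ : Finset X} {a : X} (ha : a ∈ Δ) (h : ∀ w ∈ Δ, w ≠ a → Ind G Δ (swap a w)) :
    ∀ u ∈ Δ, ∀ v ∈ Δ, Ind G Δ (swap u v) := by
  intro u hu v hv
  by_cases e : u = v
  · exact ⟨1, fun x _ => by simp [e]⟩
  by_cases e1 : u = a
  · subst e1; exact h v hv (Ne.symm e)
  by_cases e2 : v = a
  · subst e2; rw [swap_comm]; exact h u hu e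
  rw [← swap_mul_swap_mul_swap (x := v) (y := a) (z := u) e2 (Ne.symm e), swap_comm v a]
  exact ((h u hu e1).mul (h v hv e2) (swap_mem ha hv)).mul (h u hu e1) (swap_mem ha hu)

theorem ind_of_swap [Fintype X] {Δ : Finset X} (h : ∀ u ∈ Δ, ∀ v ∈ Δ, Ind G Δ (swap u v))
    (σ : Perm X) (hσ : ∀ x ∉ Δ, σ x = x) : Ind G Δ σ := by
  induction hn : σ.support.card using Nat.strong_induction_on generalizing σ with
  | _ n ih =>
    by_cases h1 : σ = 1
    · exact ⟨1, fun x _ => by simp [h1]⟩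
    obtain ⟨x, hx⟩ : ∃ x, σ x ≠ x := by
      by_contra hc
      push Not at hc
      exact h1 (Perm.ext hc)
    have hxΔ : x ∈ Δ := by by_contra hc; exact hx (hσ x hc)
    have hfix : ∀ y ∉ Δ, (swap x (σ x) * σ) y = y := fun y hy => by
      rw [Perm.mul_apply, hσ y hy, swap_apply_of_ne_of_ne]
      · rintro rfl; exact hy hxΔ
      · rintro rfl; exact hy (mem_of_fix hσ hxΔ)
    have := (h x hxΔ _ (mem_of_fix hσ hxΔ)).mul
      (ih _ (hn ▸ Perm.card_support_swap_mul hx) _ hfix rfl) (fun y hy => mem_of_fix hfix hy)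
    rwa [swap_mul_self_mul] at this

variable [Finite G] [Fintype X]

/-- Every `k`-set is the fixed set of an involution, and no involution fixes `k+1` points. -/
theorem caseB {k : ℕ} (h1 : ∀ s : Finset X, s.card = k → ∃ t : G, orderOf t = 2 ∧ ∀ x ∈ s, t • x = x)
    (h2 : ∀ s : Finset X, s.card = k + 1 → ∀ t : G, orderOf t = 2 → ¬ ∀ x ∈ s, t • x = x)
    {Δ : Finset X} (hΔ : Δ.card = k + 1) : ∀ u ∈ Δ, ∀ v ∈ Δ, Ind G Δ (swap u v) := by
  intro u hu v hv
  by_cases e : u = v
  · exact ⟨1, fun x _ => by simp [e]⟩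
  obtain ⟨s, hs, hs'⟩ := h1 (Δ.erase v) (by rw [Finset.card_erase_of_mem hv]; omega)
  obtain ⟨t, ht, ht'⟩ := h1 (Δ.erase u) (by rw [Finset.card_erase_of_mem hu]; omega)
  have only : ∀ (w : X) (r : G), w ∈ Δ → orderOf r = 2 → (∀ x ∈ Δ.erase w, r • x = x) →
      ∀ y, r • y = y → y ∈ Δ.erase w := fun w r hw hr hr' y hy => by
    by_contra hc
    refine h2 (insert y (Δ.erase w))
      (by rw [Finset.card_insert_of_notMem hc, Finset.card_erase_of_mem hw]; omega) r hr ?_
    intro x hx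
    rcases Finset.mem_insert.mp hx with rfl | hx
    exacts [hy, hr' x hx]
  have hfix : ∀ d ∈ zpowers (s * t), ∀ x ∈ Δ, x ≠ u → x ≠ v → d • x = x := fun d hd x hx x1 x2 =>
    (zpowers_le_of_mem (show s * t ∈ stabilizer G x by
      rw [mem_stabilizer_iff, mul_smul, ht' x (by simp [*]), hs' x (by simp [*])])) hd
  have pin : ∀ d ∈ zpowers (s * t), ∀ y w, (y = u ∨ y = v) → (w = u ∨ w = v) →
      d • y ∈ Δ.erase w → d • y = u ∨ d • y = v := fun d hd y w hy hw h => by
    by_contra hc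
    push Not at hc
    have := hfix d hd _ (Finset.mem_of_mem_erase h) hc.1 hc.2
    have := smul_left_cancel d this
    rcases hy with rfl | rfl
    exacts [hc.1 this, hc.2 this]
  have hs2 := Agent.Inv.mul_self_of_two hs
  have ht2 := Agent.Inv.mul_self_of_two ht
  have su : s • u = u := hs' u (by simp [*])
  have tv : t • v = v := ht' v (by simp [hv, Ne.symm e])
  rcases Agent.Inv.conj_or_central_involution hs2 ht2 with ⟨d, hd, -, hd2⟩ | ⟨z, hz, hz2, c1, c2⟩
  · have a1 : d • u ∈ Δ.erase u := only u t hu ht ht' _ (by rw [← hd2, conj_smul_smul, su])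
    have a2 : d • u = v := (pin d hd u u (Or.inl rfl) (Or.inl rfl) a1).resolve_left
      (Finset.ne_of_mem_erase a1)
    have a3 : d * s * (d * s) = 1 := (Agent.Inv.inverts_iff_mul_sq hs2).mp
      (Agent.Inv.inverts_of_mem_zpowers (Agent.Inv.left_inverts_mul hs2 ht2) hd)
    have a4 : (d * s) • u = v := by rw [mul_smul, su, a2]
    refine ⟨d * s, fun x hx => ?_⟩
    rw [swap_apply_def]
    split_ifs with x1 x2
    · rw [x1, a4]
    · rw [x2, ← a4, Hall4.smul_smul_sq a3]
    · rw [mul_smul, hs' x (by simp [*]), hfix d hd x hx x1 x2]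
  · exfalso
    have a1 : z • u ∈ Δ.erase v := only v s hv hs hs' _ (by rw [← Hall4.comm_smul c1.eq, su])
    have a2 : z • v ∈ Δ.erase u := only u t hu ht ht' _ (by rw [← Hall4.comm_smul c2.eq, tv])
    refine h2 Δ hΔ z hz2 fun x hx => ?_
    by_cases x1 : x = u
    · rw [x1]
      exact (pin z hz u v (Or.inl rfl) (Or.inr rfl) a1).resolve_right (Finset.ne_of_mem_erase a1)
    by_cases x2 : x = v
    · rw [x2]
      exact (pin z hz v u (Or.inr rfl) (Or.inl rfl) a2).resolve_left (Finset.ne_of_mem_erase a2)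
    exact hfix z hz x hx x1 x2

omit [Finite G] in
theorem fix_compl_modEq {p : ℕ} (hp : p.Prime) {g : G} (hg : g ^ p = 1) (Γ : Finset X)
    (hΓ : ∀ x ∈ Γ, g • x ∈ Γ) :
    Fintype.card X - Γ.card ≡ (Γᶜ.filter fun x => g • x = x).card [MOD p] := by
  have hinv : ∀ x ∈ ((Γᶜ : Finset X) : Set X), g • x ∈ ((Γᶜ : Finset X) : Set X) := by
    intro x hx
    simp only [Finset.coe_compl, Set.mem_compl_iff, Finset.mem_coe] at hx ⊢
    intro hc
    have himg : Γ.image (g • ·) = Γ := Finset.eq_of_subset_of_card_le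
      (fun y hy => by obtain ⟨w, hw, rfl⟩ := Finset.mem_image.mp hy; exact hΓ w hw)
      (by rw [Finset.card_image_of_injective _ (MulAction.injective g)])
    rw [← himg] at hc
    obtain ⟨w, hw, e⟩ := Finset.mem_image.mp hc
    exact hx (smul_left_cancel g e ▸ hw)
  have := ncard_modEq_fixed_of_pow (k := 1) hp (by simpa using hg) _ (Finset.finite_toSet _) hinv
  rw [Set.ncard_coe_finset, Finset.card_compl] at this
  convert this
  rw [← Set.ncard_coe_finset]
  congr 1
  ext x
  simp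

omit [Finite G] in
/-- The sharply `k`-transitive groups of degree `k + 7`. -/
theorem caseM {k : ℕ} (hk : 4 ≤ k) (hG : IsMultiplyPretransitive G X k)
    (hn : Fintype.card X = k + 7)
    (hsh : ∀ s : Finset X, k ≤ s.card → ∀ g : G, (∀ x ∈ s, g • x = x) → g = 1) :
    ∃ Δ : Finset X, Δ.card = k + 1 ∧ ∀ u ∈ Δ, ∀ v ∈ Δ, Ind G Δ (swap u v) := by
  have hkn : k ≤ Nat.card X := by rw [Nat.card_eq_fintype_card]; omega
  have hsq : ∀ (Γ : Finset X) (a b : X) (g : G), k ≤ Γ.card → a ∈ Γ → b ∈ Γ →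
      (∀ x ∈ Γ, g • x = swap a b x) → g * g = 1 := fun Γ a b g h ha hb hg =>
    hsh Γ h _ fun x hx => by rw [mul_smul, hg x hx, hg _ (swap_mem ha hb x hx), swap_apply_self]
  have move : ∀ (Δ : Finset X) (y a b c : X), Δ.card = k + 1 → y ∈ Δ → a ∈ Δ.erase y →
      b ∈ Δ.erase y → c ∈ Δ.erase y → a ≠ b → a ≠ c → b ≠ c → Ind G Δ (swap a b) →
      Ind G Δ (swap a c) := by
    rintro Δ y a b c hΔ hy ha hb hc hab hac hbc ⟨g, hg⟩
    set Γ := Δ.erase y with hΓ
    have cΓ : Γ.card = k := by rw [Finset.card_erase_of_mem hy]; omega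
    have hgΓ : ∀ x ∈ Γ, g • x = swap a b x := fun x hx => hg x (Finset.mem_of_mem_erase hx)
    obtain ⟨g', hg'⟩ := exists_smul_eq_perm hG hkn Γ cΓ.le (swap a c)
    have g2 := hsq Γ a b g cΓ.ge ha hb hgΓ
    have g2' := hsq Γ a c g' cΓ.ge ha hc hg'
    have hr : ∀ x ∈ Γ, (g * g') • x = (swap a b * swap a c) x := fun x hx => by
      rw [mul_smul, hg' x hx, hgΓ _ (swap_mem ha hc x hx), Perm.mul_apply]
    have hrΓ : ∀ x ∈ Γ, (g * g') • x ∈ Γ := fun x hx => by
      rw [hr x hx]; exact swap_mem ha hb _ (swap_mem ha hc x hx)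
    have r3 : (g * g') ^ 3 = 1 := hsh Γ cΓ.ge _ fun x hx => by
      have e : (swap a b * swap a c) ^ 3 = 1 := by
        rw [← (Perm.isThreeCycle_swap_mul_swap_same hab hac hbc).orderOf, pow_orderOf_eq_one]
      rw [pow_succ, sq, mul_smul, mul_smul (g * g') (g * g'), hr _ (hrΓ _ (hrΓ x hx)),
        hr _ (hrΓ x hx), hr x hx, ← Perm.mul_apply, ← Perm.mul_apply, ← sq, ← pow_succ, e,
        Perm.one_apply]
    have m3 := fix_compl_modEq Nat.prime_three r3 Γ hrΓ
    rw [hn, cΓ, Nat.add_sub_cancel_left] at m3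
    set F := Γᶜ.filter fun x => (g * g') • x = x with hF
    have le2 : F.card ≤ 2 := by
      by_contra hlt
      have : g * g' = 1 := hsh (F ∪ Γ \ {a, b, c}) (by
        rw [Finset.card_union_of_disjoint (s := F) (Finset.disjoint_left.mpr fun x h1 h2 =>
          Finset.mem_compl.mp (Finset.mem_filter.mp h1).1 (Finset.mem_sdiff.mp h2).1)]
        have := Finset.le_card_sdiff ({a, b, c} : Finset X) Γ
        have := Finset.card_le_three (a := a) (b := b) (c := c)
        omega) _ fun x hx => by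
          rcases Finset.mem_union.mp hx with hx | hx
          · exact (Finset.mem_filter.mp hx).2
          · simp only [Finset.mem_sdiff, Finset.mem_insert, Finset.mem_singleton, not_or] at hx
            rw [hr x hx.1, Perm.mul_apply, swap_apply_of_ne_of_ne hx.2.1 hx.2.2.2,
              swap_apply_of_ne_of_ne hx.2.1 hx.2.2.1]
      have := hr a ha
      rw [‹g * g' = 1›, one_smul, Perm.mul_apply, swap_apply_left,
        swap_apply_of_ne_of_ne hac.symm hbc.symm] at this
      exact hac this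
    have F1 : F.card = 1 := by unfold Nat.ModEq at m3; omega
    obtain ⟨w, hw⟩ := Finset.card_eq_one.mp F1
    have w1 : w ∈ F := by simp [hw]
    have wΓ : w ∉ Γ := Finset.mem_compl.mp (Finset.mem_filter.mp w1).1
    have w2 : (g * g') • w = w := (Finset.mem_filter.mp w1).2
    have gw : g • w = w := by
      have : g • w ∈ F := by
        rw [hF, Finset.mem_filter, Finset.mem_compl]
        refine ⟨fun h => wΓ ?_, ?_⟩
        · rw [← Hall4.smul_smul_sq g2 w, hgΓ _ h]
          exact swap_mem ha hb _ h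
        · have : g' • g • w = w := by
            conv_lhs => rw [← w2, mul_smul, Hall4.smul_smul_sq g2, Hall4.smul_smul_sq g2']
          rw [mul_smul, this]
      simpa [hw] using this
    have ya := Finset.ne_of_mem_erase ha
    have yb := Finset.ne_of_mem_erase hb
    have yc := Finset.ne_of_mem_erase hc
    have wy : w = y := by
      by_contra hne
      have hwΔ : w ∉ Δ := fun h => wΓ (Finset.mem_erase.mpr ⟨hne, h⟩)
      have : g = 1 := hsh (insert w (Δ \ {a, b})) (by
        rw [Finset.card_insert_of_notMem (fun h => hwΔ (Finset.mem_sdiff.mp h).1)]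
        have := Finset.le_card_sdiff ({a, b} : Finset X) Δ
        have := Finset.card_le_two (a := a) (b := b)
        omega) _ fun x hx => by
          rcases Finset.mem_insert.mp hx with rfl | hx
          · exact gw
          · simp only [Finset.mem_sdiff, Finset.mem_insert, Finset.mem_singleton, not_or] at hx
            rw [hg x hx.1, swap_apply_of_ne_of_ne hx.2.1 hx.2.2]
      have h1 := hgΓ a ha
      rw [this, one_smul, swap_apply_left] at h1
      exact hab h1
    refine ⟨g', fun x hx => ?_⟩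
    by_cases e : x = y
    · rw [e, swap_apply_of_ne_of_ne ya.symm yc.symm, ← wy]
      apply smul_left_cancel g
      rw [← mul_smul, w2, gw]
    · exact hg' x (Finset.mem_erase.mpr ⟨e, hx⟩)
  obtain ⟨Γ, -, cΓ⟩ := Finset.exists_subset_card_eq (s := (Finset.univ : Finset X)) (n := k)
    (by rw [Finset.card_univ]; omega)
  obtain ⟨a, b, c, ha, hb, hc, hab, hac, hbc⟩ := Finset.two_lt_card_iff.mp (show 2 < Γ.card by omega)
  obtain ⟨g, hg⟩ := exists_smul_eq_perm hG hkn Γ cΓ.le (swap a b)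
  have m2 := fix_compl_modEq Nat.prime_two ((sq g).trans (hsq Γ a b g cΓ.ge ha hb hg)) Γ
    (fun x hx => by rw [hg x hx]; exact swap_mem ha hb x hx)
  rw [hn, cΓ, Nat.add_sub_cancel_left] at m2
  obtain ⟨y, hy⟩ : (Γᶜ.filter fun x => g • x = x).Nonempty :=
    Finset.card_pos.mp (by unfold Nat.ModEq at m2; omega)
  have yΓ : y ∉ Γ := Finset.mem_compl.mp (Finset.mem_filter.mp hy).1
  have ne : ∀ x ∈ Γ, x ≠ y := fun x hx e => yΓ (e ▸ hx)
  have cΔ : (insert y Γ).card = k + 1 := by rw [Finset.card_insert_of_notMem yΓ, cΓ]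
  have I : Ind G (insert y Γ) (swap a b) := ⟨g, fun x hx => by
    rcases Finset.mem_insert.mp hx with rfl | hx
    · rw [swap_apply_of_ne_of_ne (ne a ha).symm (ne b hb).symm]
      exact (Finset.mem_filter.mp hy).2
    · exact hg x hx⟩
  refine ⟨insert y Γ, cΔ, ind_of_star (a := a) (by simp [ha]) fun w hw hwa => ?_⟩
  by_cases e : w = b
  · rw [e]; exact I
  rcases Finset.mem_insert.mp hw with rfl | hw
  · exact move _ c a b w cΔ (by simp [hc]) (by simp [ha, hac]) (by simp [hb, hbc])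
      (by simp [(ne c hc).symm]) hab hwa.symm (Ne.symm e) I
  · exact move _ y a b w cΔ (by simp) (by simp [ha, ne a ha]) (by simp [hb, ne b hb])
      (by simp [hw, ne w hw]) hab hwa.symm (Ne.symm e) I

end Cfsg.Agent.Perm.LW
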