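import Mathlib
import Cfsg.Agent.Perm.InducedAlt

/-! # The induced alternating group: the odd case and the induction -/

set_option autoImplicit false

namespace Cfsg.Agent.Perm.LW

open MulAction Subgroup Equiv SubMulAction

theorem exists_four {X : Type*} [DecidableEq X] {T : Finset X} (h : 4 ≤ T.card) :
    ∃ a b c d, a ∈ T ∧ b ∈ T ∧ c ∈ T ∧ d ∈ T ∧ [a, b, c, d].Nodup := by
  obtain ⟨S, hT, hT4⟩ := Finset.exists_subset_card_eq h
  obtain ⟨a, S, ha, rfl, hS⟩ := Finset.card_eq_succ.mp hT4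
  obtain ⟨b, c, d, h1, h2, h3, rfl⟩ := Finset.card_eq_three.mp hS
  refine ⟨a, b, c, d, hT (by simp), hT (by simp), hT (by simp), hT (by simp), ?_⟩
  simp only [Finset.mem_insert, Finset.mem_singleton, not_or] at ha
  simp [*]

/-- `k`-transitive with `k`-point stabilisers of odd order and degree at least `k + 4`. -/
theorem degree_odd {G X : Type*} [Group G] [MulAction G X] [Finite G] [Fintype X] [DecidableEq X]
    [FaithfulSMul G X] {k : ℕ} (hk : 4 ≤ k) (hG : IsMultiplyPretransitive G X k)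
    (ho : ∀ s : Finset X, s.card = k → ∀ t : G, orderOf t = 2 → ¬ ∀ x ∈ s, t • x = x)
    (h8 : k + 4 ≤ Fintype.card X) : Fintype.card X = k + 7 ∧
      ∀ s : Finset X, k ≤ s.card → ∀ g : G, (∀ x ∈ s, g • x = x) → g = 1 := by
  classical
  have key : ∀ s0 : Finset X, s0.card + 4 = k → Fintype.card X = k + 7 ∧
      ∀ g : G, (∀ x ∈ s0, g • x = x) → ∀ a ∉ s0, ∀ b ∉ s0, ∀ c ∉ s0, ∀ d ∉ s0,
        [a, b, c, d].Nodup → g • a = a → g • b = b → g • c = c → g • d = d → g = 1 := by
    intro s0 hs0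
    let K := fixingSubgroup G (s0 : Set X)
    let Y := ofFixingSubgroup G (s0 : Set X)
    have := Fintype.ofFinite Y
    have : FaithfulSMul K Y := ⟨fun {g h} e => Subtype.ext <| eq_of_smul_eq_smul (α := X) fun x => by
      by_cases hx : x ∈ s0
      · rw [(mem_fixingSubgroup_iff G).mp g.2 x hx, (mem_fixingSubgroup_iff G).mp h.2 x hx]
      · exact congrArg Subtype.val (e ⟨x, hx⟩)⟩
    have cY : Fintype.card Y + s0.card = Fintype.card X := by
      rw [← Nat.card_eq_fintype_card, card_ofFixingSubgroup, Set.ncard_coe_finset,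
        Nat.card_eq_fintype_card]
      omega
    have tr : IsMultiplyPretransitive K Y 4 :=
      ofFixingSubgroup.isMultiplyPretransitive G (s0 : Set X) (by rw [Set.ncard_coe_finset, hs0])
    have h : Hall4.H4 K Y := ⟨tr, fun t ht a b c d hn h1 h2 h3 h4 => by
      by_contra hne
      have hn' : [(a : X), b, c, d].Nodup := by
        simpa using (List.Nodup.map Subtype.val_injective hn)
      refine ho (s0 ∪ [(a : X), b, c, d].toFinset) ?_ t
        (by rw [orderOf_coe]; exact Agent.Inv.orderOf_two_of ht hne) fun x hx => ?_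
      · rw [Finset.card_union_of_disjoint, List.toFinset_card_of_nodup hn']
        · exact hs0
        · rw [Finset.disjoint_right]
          intro x hx
          simp only [List.mem_toFinset, List.mem_cons, List.not_mem_nil, or_false] at hx
          rcases hx with rfl | rfl | rfl | rfl
          exacts [a.2, b.2, c.2, d.2]
      · rcases Finset.mem_union.mp hx with hx | hx
        · exact (mem_fixingSubgroup_iff G).mp t.2 x hx
        · simp only [List.mem_toFinset, List.mem_cons, List.not_mem_nil, or_false] at hx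
          rcases hx with rfl | rfl | rfl | rfl
          exacts [congrArg Subtype.val h1, congrArg Subtype.val h2, congrArg Subtype.val h3,
            congrArg Subtype.val h4]⟩
    obtain ⟨h11, hc⟩ := Hall4.main h (by omega)
    refine ⟨by omega, fun g hg a ha b hb c hc' d hd hn h1 h2 h3 h4 => ?_⟩
    have hn' : [(⟨a, ha⟩ : Y), ⟨b, hb⟩, ⟨c, hc'⟩, ⟨d, hd⟩].Nodup :=
      List.Nodup.of_map Subtype.val (by simpa using hn)
    have e := Hall4.card_eq_S4 tr hn'
    rw [hc, h11, show Nat.choose 11 4 * 24 = 7920 by decide] at e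
    have hbot := card_eq_one.mp (show _ = 1 by omega : Nat.card (Hall4.S4 K (⟨a, ha⟩ : Y) ⟨b, hb⟩
      ⟨c, hc'⟩ ⟨d, hd⟩) = 1)
    have : (⟨g, (mem_fixingSubgroup_iff G).mpr hg⟩ : K) ∈ Hall4.S4 K (⟨a, ha⟩ : Y) ⟨b, hb⟩
      ⟨c, hc'⟩ ⟨d, hd⟩ := Hall4.mem_S4.mpr ⟨Subtype.ext h1, Subtype.ext h2, Subtype.ext h3,
        Subtype.ext h4⟩
    rw [hbot] at this
    exact congrArg Subtype.val (mem_bot.mp this)
  obtain ⟨s1, -, hs1⟩ := Finset.exists_subset_card_eq (s := (Finset.univ : Finset X)) (n := k - 4)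
    (by rw [Finset.card_univ]; omega)
  refine ⟨(key s1 (by omega)).1, fun s hs g hg => ?_⟩
  obtain ⟨s0, h0, hs0⟩ := Finset.exists_subset_card_eq (s := s) (n := k - 4) (by omega)
  obtain ⟨a, b, c, d, ha, hb, hc, hd, hn⟩ := exists_four (T := s \ s0)
    (by rw [Finset.card_sdiff_of_subset h0]; omega)
  rw [Finset.mem_sdiff] at ha hb hc hd
  exact (key s0 (by omega)).2 g (fun x hx => hg x (h0 hx)) a ha.2 b hb.2 c hc.2 d hd.2 hn
    (hg a ha.1) (hg b hb.1) (hg c hc.1) (hg d hd.1)

theorem alt_le_of_small {α : Type*} [Fintype α] [DecidableEq α] {G : Subgroup (Perm α)} {k : ℕ}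
    (hk : 4 ≤ k) (hkn : k ≤ Fintype.card α) (hG : IsMultiplyPretransitive G α k)
    (h3 : Fintype.card α ≤ k + 3) : alternatingGroup α ≤ G := by
  have hkn' : k ≤ Nat.card α := by rwa [Nat.card_eq_fintype_card]
  by_cases h2 : Fintype.card α ≤ k + 2
  · exact IsMultiplyPretransitive.alternatingGroup_le α G (isMultiplyPretransitive_of_le (n := k)
      (by rw [Nat.card_eq_fintype_card]; omega) hkn')
  by_cases hs : ∀ x : Fin k ↪ α, stabilizer G x = ⊥
  · obtain ⟨j, rfl⟩ : ∃ j, k = j + 4 := ⟨k - 4, by omega⟩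
    have := Spor.Sharp.degree_add_four j (Spor.Sharp.mk hG hs) hkn'
    rw [Nat.card_eq_fintype_card] at this
    omega
  push Not at hs
  obtain ⟨x, hx⟩ := hs
  obtain ⟨⟨g, hg⟩, hg1⟩ := ne_bot_iff_exists_ne_one.mp hx
  refine alt_le_of_support_le_three (isPreprimitive_of_is_two_pretransitive
    (isMultiplyPretransitive_of_le (n := k) (by omega) hkn')) g.2
    (fun e => hg1 (Subtype.ext (Subtype.ext e))) ?_
  have : (g : Perm α).support ⊆ (Finset.univ.map x)ᶜ := fun y hy => by
    rw [Finset.mem_compl, Finset.mem_map]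
    rintro ⟨i, -, rfl⟩
    exact Perm.mem_support.mp hy (DFunLike.congr_fun hg i)
  have := Finset.card_le_card this
  rw [Finset.card_compl, Finset.card_map, Finset.card_univ, Fintype.card_fin] at this
  omega

universe u

theorem exists_ind {k : ℕ} (hk : 4 ≤ k) (n : ℕ) : ∀ {α : Type u} [Fintype α] [DecidableEq α]
    (G : Subgroup (Perm α)), Fintype.card α = n → k < n → IsMultiplyPretransitive G α k →
    ∃ Δ : Finset α, Δ.card = k + 1 ∧
      ∀ σ : Perm α, (∀ x ∉ Δ, σ x = x) → Perm.sign σ = 1 → Ind G Δ σ := by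
  induction n using Nat.strong_induction_on with
  | _ n ih =>
  intro α _ _ G hn hkn hG
  classical
  have hkn' : k ≤ Nat.card α := by rw [Nat.card_eq_fintype_card]; omega
  have : Fact (Nat.Prime 2) := ⟨Nat.prime_two⟩
  obtain ⟨Δ0, -, hΔ0⟩ := Finset.exists_subset_card_eq (s := (Finset.univ : Finset α)) (n := k + 1)
    (by rw [Finset.card_univ]; omega)
  by_cases h2 : ∀ s : Finset α, s.card = k + 1 → ∀ t : G, orderOf t = 2 → ¬ ∀ x ∈ s, t • x = x
  · by_cases h1 : ∀ s : Finset α, s.card = k → ∀ t : G, orderOf t = 2 → ¬ ∀ x ∈ s, t • x = x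
    · by_cases h3 : Fintype.card α ≤ k + 3
      · have := alt_le_of_small hk (by omega) hG h3
        exact ⟨Δ0, hΔ0, fun σ _ hσ => ⟨⟨σ, this (Perm.mem_alternatingGroup.mpr hσ)⟩,
          fun _ _ => rfl⟩⟩
      · obtain ⟨a1, a2⟩ := degree_odd hk hG h1 (by omega)
        obtain ⟨Δ, b1, b2⟩ := caseM hk hG a1 a2
        exact ⟨Δ, b1, fun σ hσ _ => ind_of_swap b2 σ hσ⟩
    · push Not at h1
      obtain ⟨s1, hs1, t1, ht1, hf1⟩ := h1
      refine ⟨Δ0, hΔ0, fun σ hσ _ => ind_of_swap (caseB (fun s hs => ?_) h2 hΔ0) σ hσ⟩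
      apply Agent.Inv.even_card_iff_exists_involution (H := fixingSubgroup G (s : Set α)) |>.mp ?_
        |>.imp fun t ht => ⟨ht.2, (mem_fixingSubgroup_iff G).mp ht.1⟩
      rw [card_fixingSubgroup_eq hG hkn' s s1 hs.le (hs.trans hs1.symm)]
      exact Agent.Inv.even_card_of_involution_mem ((mem_fixingSubgroup_iff G).mpr hf1) ht1
  push Not at h2
  obtain ⟨s2, hs2, t2, ht2, hf2⟩ := h2
  let P : Subgroup G → Prop := fun Q => IsPGroup 2 Q ∧
    ∃ s : Finset α, s.card = k + 1 ∧ ∀ q ∈ Q, ∀ x ∈ s, q • x = x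
  have P2 : P (zpowers t2) := ⟨isPGroup_zpowers_of_pow (k := 1) (by
    rw [pow_one, ← ht2, pow_orderOf_eq_one]), s2, hs2, fun q hq x hx =>
      (zpowers_le_of_mem (show t2 ∈ stabilizer G x from hf2 x hx)) hq⟩
  obtain ⟨Q, ⟨hQ, sQ, hsQ, hfQ⟩, hmax⟩ := Set.exists_max_image {Q | P Q}
    (fun Q => Nat.card Q) (Set.toFinite _) ⟨_, P2⟩
  let F : Set α := {x | ∀ q ∈ Q, q • x = x}
  let N := normalizer (Q : Set G)
  have hNF : ∀ g ∈ N, ∀ x ∈ F, g • x ∈ F := fun g hg x hx q hq => by
    have := hx _ ((mem_normalizer_iff''.mp hg q).mp hq)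
    rw [mul_smul, mul_smul, inv_smul_eq_iff] at this
    exact this
  let Y := Fx.subAct N F hNF
  have := Fintype.ofFinite Y
  have cY1 : k < Fintype.card Y := by
    have := Fintype.card_le_of_injective (fun x : sQ => (⟨x.1, fun q hq => hfQ q hq x x.2⟩ : Y))
      fun x y e => Subtype.ext (congrArg (Subtype.val : Y → α) e)
    rw [Fintype.card_coe] at this
    omega
  have cY2 : Fintype.card Y < n := by
    rw [← hn]
    apply Fintype.card_lt_of_injective_not_surjective (Subtype.val : Y → α) Subtype.val_injective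
    intro hs
    have : Q = ⊥ := by
      rw [eq_bot_iff]
      intro q hq
      refine eq_one_of_smul_eq (X := α) fun x => ?_
      obtain ⟨y, rfl⟩ := hs x
      exact y.2 q hq
    have h := hmax _ P2
    simp only [this, card_bot, Nat.card_zpowers, ht2] at h
    omega
  have trN : IsMultiplyPretransitive N Y k := by
    by_cases hw : ∃ s : Finset α, s.card = k ∧ Q ≤ fixingSubgroup G (s : Set α) ∧
        ¬ 2 ∣ Q.relIndex (fixingSubgroup G (s : Set α))
    · obtain ⟨s, hs, h1, h2⟩ := hw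
      refine ⟨fun a b => ?_⟩
      obtain ⟨g, hg, e⟩ := witt_fix hG hkn' hQ s hs.le h1 h2 (ι := Fin k) (by simp [hs])
        (fun i => (a i : α)) (fun i => (b i : α)) (Subtype.val_injective.comp a.injective)
        (Subtype.val_injective.comp b.injective) (fun q hq i => (a i).2 q hq)
        (fun q hq i => (b i).2 q hq)
      exact ⟨⟨g, hg⟩, Function.Embedding.ext fun i => Subtype.ext (e i)⟩
    push Not at hw
    refine gleason Nat.prime_two (by omega) (by rwa [Nat.card_eq_fintype_card]) fun s hs => ?_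
    let s' := s.map (Function.Embedding.subtype _)
    have hs' : s'.card = k := by rw [Finset.card_map, hs]
    let K := fixingSubgroup G (s' : Set α)
    have hQK : Q ≤ K := fun q hq => (mem_fixingSubgroup_iff G).mpr fun x hx => by
      obtain ⟨y, -, rfl⟩ := Finset.mem_map.mp hx
      exact y.2 q hq
    obtain ⟨m, hm⟩ := hQ.exists_card_eq
    have hm' : Nat.card (Q.subgroupOf K) = 2 ^ m := by
      rw [Nat.card_congr (subgroupOfEquivOfLe hQK).toEquiv, hm]
    obtain ⟨R, hR, hQR⟩ := Sylow.exists_subgroup_card_pow_succ (G := K) (p := 2) (n := m) (by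
      rw [← (Q.subgroupOf K).index_mul_card, hm', pow_succ']
      exact Nat.mul_dvd_mul_right (hw s' hs' hQK) _) hm'
    let R' := R.map K.subtype
    have cR : Nat.card R' = 2 ^ (m + 1) := by rw [card_map_of_injective K.subtype_injective, hR]
    have hQR' : Q ≤ R' := fun q hq => ⟨⟨q, hQK hq⟩, hQR hq, rfl⟩
    have hRN : R' ≤ N := by
      have i2 : (Q.subgroupOf R').index = 2 := by
        have := (Q.subgroupOf R').index_mul_card
        rw [Nat.card_congr (subgroupOfEquivOfLe hQR').toEquiv, hm, cR, pow_succ'] at this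
        exact Nat.eq_of_mul_eq_mul_right (by positivity) this
      exact (normal_subgroupOf_iff_le_normalizer hQR').mp (normal_of_index_eq_two i2)
    have pR : IsPGroup 2 R' := IsPGroup.of_card cR
    refine ⟨R'.subgroupOf N, pR.of_equiv (subgroupOfEquivOfLe hRN).symm, fun x => ⟨fun hx => ?_,
      fun hx g hg => Subtype.ext ?_⟩⟩
    · by_contra hxs
      have h := hmax R' ⟨pR, insert x.1 s', by
        rw [Finset.card_insert_of_notMem (by simpa [s'] using hxs), hs'], fun q hq y hy => by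
          rcases Finset.mem_insert.mp hy with rfl | hy
          · exact congrArg Subtype.val (hx ⟨q, hRN hq⟩ hq)
          · obtain ⟨r, -, rfl⟩ := hq
            exact (mem_fixingSubgroup_iff G).mp r.2 y hy⟩
      simp only [cR, hm, pow_succ] at h
      have : 0 < 2 ^ m := by positivity
      omega
    · obtain ⟨r, -, e⟩ := hg
      change (g : G) • (x : α) = x
      have e' : (r : G) = (g : G) := e
      rw [← e']
      exact (mem_fixingSubgroup_iff G).mp r.2 x (Finset.mem_map_of_mem _ hx)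
  obtain ⟨Δ, hΔ, hI⟩ := ih _ cY2 (toPermHom N Y).range rfl cY1
    ((isMultiplyPretransitive_range_iff k).mpr trN)
  refine ⟨Δ.map (Function.Embedding.subtype _), by rw [Finset.card_map, hΔ], fun σ hσ hs => ?_⟩
  have hsub : ∀ x, σ x ≠ x → x ∈ Y := fun x hx => by
    by_contra hc
    refine hx (hσ x fun h => hc ?_)
    obtain ⟨y, -, rfl⟩ := Finset.mem_map.mp h
    exact y.2
  have hiff : ∀ x, σ x ∈ Y ↔ x ∈ Y := fun x => by
    by_cases e : σ x = x
    · rw [e]
    · exact ⟨fun _ => hsub x e, fun _ => hsub _ fun h => e (σ.injective h)⟩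
  obtain ⟨⟨_, g, rfl⟩, hg⟩ := hI (σ.subtypePerm hiff)
    (fun x hx => Subtype.ext (hσ x (by simpa using hx)))
    (by rw [← hs]; convert Perm.sign_subtypePerm σ hiff hsub)
  refine ⟨g, fun x hx => ?_⟩
  obtain ⟨y, hy, rfl⟩ := Finset.mem_map.mp hx
  exact congrArg Subtype.val (hg y hy)

end Cfsg.Agent.Perm.LW
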