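import Mathlib
import Cfsg.Agent.Perm.InducedAlt2
import Cfsg.Agent.Perm.Homog
import Cfsg.Agent.Perm.JordanSet

/-! # The Livingstone–Wagner theorem: the orientation argument -/

set_option autoImplicit false

namespace Cfsg.Agent.Perm.LW

open MulAction Subgroup Equiv
open scoped Pointwise

variable {G X : Type*} [Group G] [MulAction G X] [Fintype X] [DecidableEq X]

theorem restrict {Δ : Finset X} (σ : Perm X) (h : ∀ x ∈ Δ, σ x ∈ Δ) :
    ∃ τ : Perm X, (∀ x ∉ Δ, τ x = x) ∧ ∀ x ∈ Δ, τ x = σ x := by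
  have hiff : ∀ x, σ x ∈ Δ ↔ x ∈ Δ := fun x => ⟨fun hx => by
    have himg : Δ.image σ = Δ := Finset.eq_of_subset_of_card_le
      (fun y hy => by obtain ⟨w, hw, rfl⟩ := Finset.mem_image.mp hy; exact h w hw)
      (by rw [Finset.card_image_of_injective _ σ.injective])
    rw [← himg] at hx
    obtain ⟨w, hw, e⟩ := Finset.mem_image.mp hx
    exact σ.injective e ▸ hw, h x⟩
  exact ⟨Perm.ofSubtype (σ.subtypePerm hiff), fun x hx => Perm.ofSubtype_apply_of_not_mem _ hx,
    fun x hx => Perm.ofSubtype_apply_of_mem _ hx⟩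

theorem ind_smul {Δ : Finset X} (P : ℤˣ → Prop)
    (h : ∀ σ : Perm X, (∀ x ∉ Δ, σ x = x) → P (Perm.sign σ) → Ind G Δ σ) (g : G) :
    ∀ σ : Perm X, (∀ x ∉ g • Δ, σ x = x) → P (Perm.sign σ) → Ind G (g • Δ) σ := by
  intro σ h1 h2
  obtain ⟨k, hk⟩ := h ((toPerm g)⁻¹ * σ * toPerm g) (fun x hx => by
    have := h1 (g • x) (by rwa [Finset.smul_mem_smul_finset_iff])
    rw [Perm.mul_apply, Perm.mul_apply, toPerm_apply, this, Perm.inv_eq_iff_eq, toPerm_apply])
    (by rwa [Perm.sign_mul, Perm.sign_mul, Perm.sign_inv, mul_right_comm, Int.units_mul_self,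
      one_mul])
  refine ⟨g * k * g⁻¹, fun x hx => ?_⟩
  obtain ⟨y, hy, rfl⟩ := Finset.mem_smul_finset.mp hx
  rw [conj_smul_smul, hk y hy, Perm.mul_apply, Perm.mul_apply, toPerm_apply]
  exact (toPerm g).apply_symm_apply _

theorem trans_of_ind {j : ℕ} (hh : Homog G X (j + 1)) (ht : IsMultiplyPretransitive G X j)
    (hj : j ≤ Fintype.card X) {Δ : Finset X} (hΔ : Δ.card = j + 1)
    (h : ∀ σ : Perm X, (∀ x ∉ Δ, σ x = x) → Ind G Δ σ) : IsMultiplyPretransitive G X (j + 1) := by
  obtain ⟨s, -, hs⟩ := Finset.exists_subset_card_eq (s := (Finset.univ : Finset X)) (n := j)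
    (by rwa [Finset.card_univ])
  refine isMultiplyPretransitive_succ_of_fix ht s hs fun a ha b hb => ?_
  obtain ⟨g1, e1⟩ := hh Δ (insert a s) hΔ (by rw [Finset.card_insert_of_notMem ha, hs])
  obtain ⟨g, e⟩ := hh (insert a s) (insert b s) (by rw [Finset.card_insert_of_notMem ha, hs])
    (by rw [Finset.card_insert_of_notMem hb, hs])
  have sx : ∀ x ∈ s, swap a b x = x := fun x hx =>
    swap_apply_of_ne_of_ne (fun e => ha (e ▸ hx)) (fun e => hb (e ▸ hx))
  obtain ⟨τ, t1, t2⟩ := restrict (Δ := insert a s) (toPerm g⁻¹ * swap a b) fun x hx => by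
    rw [Perm.mul_apply, toPerm_apply, Finset.inv_smul_mem_iff, e]
    rcases Finset.mem_insert.mp hx with rfl | hx
    · simp
    · rw [sx x hx]; simp [hx]
  obtain ⟨k, hk⟩ := ind_smul (fun _ => True) (fun σ h1 _ => h σ h1) g1 τ (e1 ▸ t1) trivial
  rw [e1] at hk
  refine ⟨g * k, fun x hx => ?_, ?_⟩
  · have hx' : x ∈ insert a s := by simp [hx]
    rw [mul_smul, hk x hx', t2 x hx', Perm.mul_apply, toPerm_apply, smul_inv_smul, sx x hx]
  · have hx' : a ∈ insert a s := by simp
    rw [mul_smul, hk a hx', t2 a hx', Perm.mul_apply, toPerm_apply, smul_inv_smul, swap_apply_left]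

/-- No element induces an odd permutation on a `j`-set. -/
def NoOdd (G X : Type*) [Group G] [MulAction G X] [Fintype X] [DecidableEq X] (j : ℕ) : Prop :=
  ∀ Δ : Finset X, Δ.card = j → ∀ σ : Perm X, (∀ x ∉ Δ, σ x = x) → Ind G Δ σ → Perm.sign σ = 1

theorem NoOdd.invol {j : ℕ} (h : NoOdd G X j) {t : G} (ht : t * t = 1) {c : ℕ} (hc : Odd c)
    (h1 : 2 * c ≤ j) (h2 : j ≤ (Hall4.Fix X t).card + 2 * c)
    (h3 : (Hall4.Fix X t).card + 2 * c ≤ Fintype.card X + 1) : False := by
  obtain ⟨T, hT, cT⟩ := Finset.exists_subset_card_eq (s := Hall4.Fix X t) (n := j - 2 * c)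
    (by omega)
  obtain ⟨Y, hY, cY, iY⟩ := exists_invariant_of_invol (h := t) (Hall4.Fix X t)ᶜ
    (fun x hx => by
      rw [Finset.mem_compl, Hall4.mem_Fix] at hx ⊢
      exact fun e => hx (smul_left_cancel t e))
    (fun x _ => Hall4.smul_smul_sq ht x)
    (fun x hx => by rwa [Finset.mem_compl, Hall4.mem_Fix] at hx) c
    (by rw [Finset.card_compl]; have := Finset.card_le_univ (Hall4.Fix X t); omega)
  have hdis : Disjoint T Y := Finset.disjoint_left.mpr fun x a b =>
    Finset.mem_compl.mp (hY b) (hT a)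
  have hinv : ∀ x ∈ T ∪ Y, toPerm t x ∈ T ∪ Y := fun x hx => by
    rcases Finset.mem_union.mp hx with hx | hx
    · rw [toPerm_apply, Hall4.mem_Fix.mp (hT hx)]; simp [hx]
    · simp [iY x hx]
  obtain ⟨τ, t1, t2⟩ := restrict (toPerm t) hinv
  have hs := h (T ∪ Y) (by rw [Finset.card_union_of_disjoint hdis]; omega) τ t1
    ⟨t, fun x hx => (t2 x hx).symm⟩
  have h2 : τ ^ 2 = 1 := by
    ext x
    rw [sq, Perm.mul_apply, Perm.one_apply]
    by_cases hx : x ∈ T ∪ Y
    · rw [t2 x hx, t2 _ (hinv x hx)]; exact Hall4.smul_smul_sq ht x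
    · rw [t1 x hx, t1 x hx]
  have hf : Fintype.card (Function.fixedPoints τ) = Fintype.card X - 2 * c := by
    rw [← cY, ← Finset.card_compl, Fintype.card_subtype]
    congr 1
    ext x
    simp only [Finset.mem_filter, Finset.mem_univ, true_and, Function.mem_fixedPoints,
      Function.IsFixedPt, Finset.mem_compl]
    constructor
    · intro e hx
      rw [t2 x (by simp [hx])] at e
      exact Finset.mem_compl.mp (hY hx) (Hall4.mem_Fix.mpr e)
    · intro hx
      by_cases hx' : x ∈ T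
      · rw [t2 x (by simp [hx'])]; exact Hall4.mem_Fix.mp (hT hx')
      · exact t1 x (by simp [hx, hx'])
  rw [Perm.sign_of_pow_two_eq_one h2, hf, show (Fintype.card X - (Fintype.card X - 2 * c)) / 2 = c by
    have := Finset.card_le_univ Y; omega, hc.neg_one_pow] at hs
  exact absurd hs (by decide)

omit [Fintype X] [DecidableEq X] in
theorem exists_invol' {g : G} (ho : Odd (orderOf (g * g))) :
    ∃ t : G, t * t = 1 ∧ ∀ x : X, g • g • x = x → t • x = g • x := by
  refine ⟨g ^ orderOf (g * g), ?_, fun x hx => ?_⟩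
  · rw [← (Commute.refl g).mul_pow, pow_orderOf_eq_one]
  · obtain ⟨j, hj⟩ := ho
    rw [hj, pow_succ', pow_mul, mul_smul, sq]
    congr 1
    exact (stabilizer G x).pow_mem (show g * g ∈ stabilizer G x by
      rw [mem_stabilizer_iff, mul_smul, hx]) j

theorem card_modEq_Fix {t : G} (ht : t * t = 1) :
    Fintype.card X ≡ (Hall4.Fix X t).card [MOD 2] := by
  simpa [Hall4.Fix] using fix_compl_modEq (X := X) Nat.prime_two ((sq t).trans ht) ∅ (by simp)

/-- A `(j+1)`-homogeneous, `j`-transitive, not `(j+1)`-transitive group with `j ≥ 4` has degree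
at most `j + 2`. -/
theorem card_le {α : Type*} [Fintype α] [DecidableEq α] {G : Subgroup (Perm α)} {j : ℕ}
    (hj : 4 ≤ j) (hh : Homog G α (j + 1)) (ht : IsMultiplyPretransitive G α j)
    (hn : ¬ IsMultiplyPretransitive G α (j + 1)) : Fintype.card α ≤ j + 2 := by
  by_contra hlt
  obtain ⟨Δ0, c0, h0⟩ := exists_ind hj _ G rfl (by omega) ht
  have hall : ∀ Δ : Finset α, Δ.card = j + 1 → ∀ σ : Perm α, (∀ x ∉ Δ, σ x = x) →
      Perm.sign σ = 1 → Ind G Δ σ := fun Δ hΔ => by
    obtain ⟨g, rfl⟩ := hh Δ0 Δ c0 hΔ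
    exact ind_smul (· = 1) h0 g
  have no : NoOdd G α (j + 1) := fun Δ hΔ τ t1 t2 => by
    by_contra hne
    refine hn (trans_of_ind hh ht (by omega) hΔ fun σ h1 => ?_)
    by_cases hs : Perm.sign σ = 1
    · exact hall Δ hΔ σ h1 hs
    · have := (hall Δ hΔ (σ * τ⁻¹) (fun x hx => by
        rw [Perm.mul_apply, Perm.inv_eq_iff_eq.mpr (t1 x hx).symm, h1 x hx]) (by
        rw [Perm.sign_mul, Perm.sign_inv, (Int.units_eq_one_or _).resolve_left hs,
          (Int.units_eq_one_or _).resolve_left hne]; decide)).mul t2 fun x hx => mem_of_fix t1 hx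
      rwa [inv_mul_cancel_right] at this
  have fix : ∀ t : G, t * t = 1 → t ≠ 1 → (Hall4.Fix α t).card + 2 ≤ j := fun t h1 h2 => by
    by_contra hc
    obtain ⟨x, hx⟩ := exists_smul_ne (X := α) h2
    have : (Hall4.Fix α t).card < Fintype.card α :=
      Finset.card_lt_univ_of_notMem (x := x) (by rwa [Hall4.mem_Fix])
    exact no.invol h1 odd_one (by omega) (by omega) (by omega)
  by_cases h4 : j = 4
  · subst h4
    have h : Hall4.H4 G α := ⟨ht, fun t h1 a b c d hn a1 a2 a3 a4 => by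
      by_contra h2
      have := fix t h1 h2
      have h3 : [a, b, c, d].toFinset ⊆ Hall4.Fix α t := fun x hx => by
        simp only [List.mem_toFinset, List.mem_cons, List.not_mem_nil, or_false] at hx
        rcases hx with rfl | rfl | rfl | rfl <;> exact Hall4.mem_Fix.mpr ‹_›
      have := Finset.card_le_card h3
      rw [List.toFinset_card_of_nodup hn] at this
      simp at this; omega⟩
    obtain ⟨a, b, c, d, hnd⟩ := Hall4.exists_nodup (X := α) (by omega)
    obtain ⟨s, -, hs, -, -, ⟨s1, -, s3, s4⟩, -⟩ := Hall4.exists_W h hnd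
    simp only [List.nodup_cons, List.mem_cons, List.not_mem_nil, or_false, not_or] at hnd
    have f1 := fix s hs (fun e => hnd.1.1 (by rw [← s1, e, one_smul]))
    have f2 : ({c, d} : Finset α) ⊆ Hall4.Fix α s := fun x hx => by
      simp only [Finset.mem_insert, Finset.mem_singleton] at hx
      rcases hx with rfl | rfl <;> exact Hall4.mem_Fix.mpr ‹_›
    have f3 := Finset.card_le_card f2
    rw [Finset.card_pair hnd.2.2.1] at f3
    have f4 := card_modEq_Fix (X := α) hs
    unfold Nat.ModEq at f4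
    have := (Hall4.main h (by omega)).1
    omega
  obtain ⟨a, b, c, d, ha, hb, hc, hd, hnd⟩ := exists_four (T := Δ0) (by omega)
  simp only [List.nodup_cons, List.mem_cons, List.not_mem_nil, or_false, not_or] at hnd
  obtain ⟨⟨hab, hac, had⟩, ⟨hbc, hbd⟩, hcd, -⟩ := hnd
  have out : ∀ x, x ≠ a → x ≠ b → x ≠ c → x ≠ d → (swap a b * swap c d) x = x :=
    fun x x1 x2 x3 x4 => by
      rw [Perm.mul_apply, swap_apply_of_ne_of_ne x3 x4, swap_apply_of_ne_of_ne x1 x2]
  obtain ⟨g, hg⟩ := h0 (swap a b * swap c d) (fun x hx => out x (fun e => hx (e ▸ ha))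
    (fun e => hx (e ▸ hb)) (fun e => hx (e ▸ hc)) (fun e => hx (e ▸ hd)))
    (by rw [Perm.sign_mul, Perm.sign_swap hab, Perm.sign_swap hcd]; decide)
  have gg : ∀ x ∈ Δ0, g • g • x = x := fun x hx => by
    have hc' : Commute (swap a b) (swap c d) := (Perm.disjoint_swap_swap (by simp [*])).commute
    have e : swap a b * swap c d * (swap a b * swap c d) = 1 :=
      (Agent.Inv.commute_iff_mul_sq (swap_mul_self a b) (swap_mul_self c d)).mp hc'
    rw [hg x hx, hg ((swap a b * swap c d) x) (swap_mem ha hb _ (swap_mem hc hd x hx)),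
      ← Perm.mul_apply, e, Perm.one_apply]
  have ho : Odd (orderOf (g * g)) := by
    refine BW.odd_orderOf (H := fixingSubgroup G (Δ0 : Set α)) ?_
      ((mem_fixingSubgroup_iff G).mpr fun x hx => by rw [mul_smul, gg x hx])
    rw [Agent.Inv.odd_card_iff_no_involution]
    intro t h1 h2
    have := fix t (Agent.Inv.mul_self_of_two h2) (Agent.Inv.ne_one_of_two h2)
    have h3 : Δ0 ⊆ Hall4.Fix α t := fun x hx =>
      Hall4.mem_Fix.mpr ((mem_fixingSubgroup_iff G).mp h1 x hx)
    have := Finset.card_le_card h3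
    omega
  obtain ⟨t, t1, t2⟩ := exists_invol' (X := α) ho
  have f1 := fix t t1 (fun e => hab (by
    have := (t2 a (gg a ha)).trans (hg a ha)
    rwa [e, one_smul, Perm.mul_apply, swap_apply_of_ne_of_ne hac had, swap_apply_left] at this))
  have f2 : Δ0 \ {a, b, c, d} ⊆ Hall4.Fix α t := fun x hx => by
    simp only [Finset.mem_sdiff, Finset.mem_insert, Finset.mem_singleton, not_or] at hx
    rw [Hall4.mem_Fix, t2 x (gg x hx.1), hg x hx.1, out x hx.2.1 hx.2.2.1 hx.2.2.2.1 hx.2.2.2.2]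
  have f3 := Finset.card_le_card f2
  have f4 := Finset.le_card_sdiff ({a, b, c, d} : Finset α) Δ0
  have f5 := Finset.card_le_four (a := a) (b := b) (c := c) (d := d)
  exact no.invol t1 (c := 3) (by decide) (by omega) (by omega) (by omega)

end Cfsg.Agent.Perm.LW
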