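import Mathlib
import Cfsg.Agent.Perm.LivWag

/-! # The Livingstone–Wagner theorem: the count and the exceptions -/

set_option autoImplicit false

namespace Cfsg.Agent.Perm.LW

open MulAction Subgroup Equiv
open scoped Pointwise

variable {G X : Type*} [Group G] [MulAction G X] [Fintype X] [DecidableEq X]

/-- The stabiliser of a set acts on a complement of prime size. -/
theorem prime_compl [Finite G] {p : ℕ} (hp : p.Prime) (Γ : Finset X)
    (hΓ : Γ.card + p = Fintype.card X)
    (hf : ∀ g : G, (∀ x ∉ Γ, g • x = x) → g = 1) (hd : p ∣ Nat.card (stabilizer G Γ)) :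
    ∃ k n, k ∣ p - 1 ∧ n ≡ 1 [MOD p] ∧ Nat.card (stabilizer G Γ) = p * k * n := by
  let Y := Fx.subAct (stabilizer G Γ) ((Γᶜ : Finset X) : Set X) fun h hh x hx => by
    rw [Finset.mem_coe, Finset.mem_compl] at hx ⊢
    rwa [← mem_stabilizer_iff.mp hh, Finset.smul_mem_smul_finset_iff]
  have : FaithfulSMul (stabilizer G Γ) Y := ⟨fun {g h} e => by
    have : (h : G)⁻¹ * g = 1 := hf _ fun x hx => by
      have := congrArg Subtype.val (e ⟨x, show x ∈ ((Γᶜ : Finset X) : Set X) by simpa using hx⟩)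
      rw [mul_smul, inv_smul_eq_iff]
      exact this
    exact Subtype.ext (inv_mul_eq_one.mp this).symm⟩
  refine Spor.card_eq_of_prime_degree (Ω := Y) hp ?_ hd
  change Nat.card ((Γᶜ : Finset X) : Set X) = p
  rw [Nat.card_coe_set_eq, Set.ncard_coe_finset, Finset.card_compl]
  omega

omit [Fintype X] in
theorem mem_stabilizer_of_mem {g : G} {Γ : Finset X} (h : ∀ x ∈ Γ, g • x ∈ Γ) :
    g ∈ stabilizer G Γ :=
  Finset.eq_of_subset_of_card_le
    (fun y hy => by obtain ⟨w, hw, rfl⟩ := Finset.mem_smul_finset.mp hy; exact h w hw)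
    (by rw [Finset.card_smul_finset])

/-- An involution stabilises a set made of `i` fixed points and `c` transpositions. -/
theorem exists_invariant {t : G} (ht : t * t = 1) (i c : ℕ) (h1 : i ≤ (Hall4.Fix X t).card)
    (h2 : (Hall4.Fix X t).card + 2 * c ≤ Fintype.card X + 1) :
    ∃ Γ : Finset X, Γ.card = i + 2 * c ∧ t ∈ stabilizer G Γ ∧ (i = 0 → ∀ x ∈ Γ, t • x ≠ x) := by
  obtain ⟨T, hT, cT⟩ := Finset.exists_subset_card_eq h1
  obtain ⟨Y, hY, cY, iY⟩ := exists_invariant_of_invol (h := t) (Hall4.Fix X t)ᶜ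
    (fun x hx => by
      rw [Finset.mem_compl, Hall4.mem_Fix] at hx ⊢
      exact fun e => hx (smul_left_cancel t e))
    (fun x _ => Hall4.smul_smul_sq ht x)
    (fun x hx => by rwa [Finset.mem_compl, Hall4.mem_Fix] at hx) c
    (by rw [Finset.card_compl]; have := Finset.card_le_univ (Hall4.Fix X t); omega)
  have hdis : Disjoint T Y := Finset.disjoint_left.mpr fun x a b =>
    Finset.mem_compl.mp (hY b) (hT a)
  refine ⟨T ∪ Y, by rw [Finset.card_union_of_disjoint hdis, cT, cY],
    mem_stabilizer_of_mem fun x hx => ?_, fun h x hx => ?_⟩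
  · rcases Finset.mem_union.mp hx with hx | hx
    · rw [Hall4.mem_Fix.mp (hT hx)]; simp [hx]
    · simp [iY x hx]
  · rw [Finset.card_eq_zero.mp (cT.trans h), Finset.empty_union] at hx
    exact fun e => Finset.mem_compl.mp (hY hx) (Hall4.mem_Fix.mpr e)

/-- A group of order six acting faithfully on four points has no fixed-point-free involution. -/
theorem not_six [Finite G] {Γ : Finset X} (hΓ : Γ.card = 4) (h6 : Nat.card (stabilizer G Γ) = 6)
    (hf : ∀ g : G, (∀ x ∈ Γ, g • x = x) → g = 1) {t : G} (ht : t ∈ stabilizer G Γ)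
    (htf : ∀ x ∈ Γ, t • x ≠ x) : False := by
  have : Fact (Nat.Prime 3) := ⟨Nat.prime_three⟩
  obtain ⟨r, hr⟩ := exists_prime_orderOf_dvd_card' (G := stabilizer G Γ) 3 (by rw [h6]; decide)
  have inv : ∀ g ∈ stabilizer G Γ, ∀ x ∈ Γ, g • x ∈ Γ := fun g hg x hx => by
    rw [← mem_stabilizer_iff.mp hg]; exact Finset.smul_mem_smul_finset hx
  have i2 : (zpowers r).index = 2 := by
    have := (zpowers r).index_mul_card
    rw [Nat.card_zpowers, hr, h6] at this
    omega
  have hn := (normal_of_index_eq_two i2).conj_mem r (mem_zpowers r) ⟨t, ht⟩⁻¹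
  have r3 : (r : G) ^ 3 ^ 1 = 1 := by
    rw [pow_one, ← hr, ← orderOf_coe, pow_orderOf_eq_one]
  obtain ⟨y, hy, ry⟩ := exists_fixed_of_pow Nat.prime_three r3 (Γ : Set X) Γ.finite_toSet
    (inv r r.2) (by rw [Set.ncard_coe_finset, hΓ]; decide)
  have e : (r : G) • t • y = t • y := by
    obtain ⟨m, hm⟩ := hn
    have h1 : ((r : G) ^ m) • y = y := (stabilizer G y).zpow_mem (show (r : G) ∈ _ from ry) m
    have h2 : (r : G) ^ m = t⁻¹ * r * t⁻¹⁻¹ := by simpa using congrArg Subtype.val hm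
    rwa [h2, inv_inv, mul_smul, mul_smul, inv_smul_eq_iff] at h1
  have ho : Odd (orderOf (r : G)) := by rw [orderOf_coe, hr]; decide
  have : (r : G) = 1 := hf r fun x hx => by
    by_cases x1 : x = y
    · rw [x1, ry]
    by_cases x2 : x = t • y
    · rw [x2, e]
    refine Hall4.fix_of_card_le_two ho (Γ \ {y, t • y}) ?_ (fun w hw => ?_) (by simp [*])
    · rw [Finset.card_sdiff_of_subset, Finset.card_pair (htf y hy).symm, hΓ]
      intro w hw
      simp only [Finset.mem_insert, Finset.mem_singleton] at hw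
      rcases hw with rfl | rfl
      exacts [hy, inv t ht y hy]
    · simp only [Finset.mem_sdiff, Finset.mem_insert, Finset.mem_singleton, not_or] at hw ⊢
      exact ⟨inv r r.2 w hw.1, fun h => hw.2.1 (smul_left_cancel (r : G) (h.trans ry.symm)),
        fun h => hw.2.2 (smul_left_cancel (r : G) (h.trans e.symm))⟩
  rw [← orderOf_coe, this, orderOf_one] at hr
  omega

theorem arith3 {n m a b l : ℕ} (h1 : m * a = 6) (h2 : 2 ≤ m) (h3 : n = m * l + 2)
    (h4 : (n - 3) * b = 4 * a) (h5 : 5 ≤ n) :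
    (n = 5 ∧ l = 1) ∨ (n = 6 ∧ l = 2 ∧ a = 3) ∨ (n = 11 ∧ l = 3) := by
  have ha : a ≤ 3 := by nlinarith
  have ha0 : 0 < a := Nat.pos_of_ne_zero (by rintro rfl; omega)
  have hn : n - 3 ≤ 4 * a := Nat.le_of_dvd (by omega) (Dvd.intro _ h4)
  have hl : l ≤ 7 := by
    have : 2 * l ≤ m * l := Nat.mul_le_mul_right l h2
    omega
  have hm : m ≤ 6 := Nat.le_of_dvd (by norm_num) (Dvd.intro _ h1)
  subst h3
  interval_cases m <;> interval_cases l <;> omega

theorem arith4 {n m a b l : ℕ} (h1 : m * a = 24) (h2 : 2 ≤ m) (h3 : n = m * l + 3)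
    (h4 : (n - 4) * b = 5 * a) (h5 : 6 ≤ n) :
    (n = 6 ∧ l = 1) ∨ (n = 9 ∧ (l = 1 ∨ l = 2 ∨ l = 3)) ∨ (n = 7 ∧ (l = 2 ∨ (l = 1 ∧ a = 6))) ∨
      (n = 12 ∧ l = 3) ∨ (n = 24 ∧ l = 7) ∨ (n = 19 ∧ (l = 2 ∨ l = 4 ∨ l = 8)) := by
  have ha : a ≤ 12 := by nlinarith
  have ha0 : 0 < a := Nat.pos_of_ne_zero (by rintro rfl; omega)
  have hn : n - 4 ≤ 5 * a := Nat.le_of_dvd (by omega) (Dvd.intro _ h4)
  have hm : m = 2 ∧ a = 12 ∨ m = 3 ∧ a = 8 ∨ m = 4 ∧ a = 6 ∨ m = 6 ∧ a = 4 ∨ m = 8 ∧ a = 3 ∨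
      m = 12 ∧ a = 2 ∨ m = 24 ∧ a = 1 := by interval_cases a <;> omega
  subst h3
  rcases hm with ⟨rfl, rfl⟩ | ⟨rfl, rfl⟩ | ⟨rfl, rfl⟩ | ⟨rfl, rfl⟩ | ⟨rfl, rfl⟩ | ⟨rfl, rfl⟩ |
    ⟨rfl, rfl⟩ <;>
  · have hl : l ≤ 30 := by omega
    interval_cases l <;> omega

theorem no_kn {p c k n : ℕ} (hp : 1 < p) (h1 : k ∣ p - 1) (h2 : n ≡ 1 [MOD p])
    (h3 : p * c = p * k * n) : c % p ∣ p - 1 := by
  rw [mul_assoc] at h3
  have e := Nat.eq_of_mul_eq_mul_left (by omega) h3
  have hk : k < p := by have := Nat.le_of_dvd (by omega) h1; omega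
  have : c % p = k := by
    have := (h2.mul_left k)
    rw [mul_one, ← e] at this
    rw [this, Nat.mod_eq_of_lt hk]
  rwa [this]

theorem exceptions {α : Type*} [Fintype α] [DecidableEq α] (G : Subgroup (Perm α)) {i : ℕ}
    (hi : 1 ≤ i) (hkn : i + 2 ≤ Fintype.card α) (ht : IsMultiplyPretransitive G α i)
    (hnt : ¬ IsMultiplyPretransitive G α (i + 1)) (h1 : Homog G α (i + 1))
    (h2 : Homog G α (i + 2)) :
    (i + 2 = Fintype.card α ∧ G = alternatingGroup α) ∨
      (Fintype.card α = 5 ∧ i = 2 ∧ Nat.card G = 20) ∨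
      (Fintype.card α = 6 ∧ i = 3 ∧ Nat.card G = 120) ∨
      (Fintype.card α = 9 ∧ i = 3 ∧ (Nat.card G = 504 ∨ Nat.card G = 1512)) := by
  set n := Fintype.card α with hn
  have hN : Nat.card α = n := Nat.card_eq_fintype_card
  have ex : ∀ j ≤ n, ∃ s : Finset α, s.card = j := fun j hj =>
    (Finset.exists_subset_card_eq (s := Finset.univ) (by rwa [Finset.card_univ])).imp fun _ h => h.2
  have eqc : ∀ j, Homog G α j → ∀ s t : Finset α, s.card = j → t.card = j →
      Nat.card (fixingSubgroup G (s : Set α)) = Nat.card (fixingSubgroup G (t : Set α)) :=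
    fun j h s t hs ht => by
      obtain ⟨g, rfl⟩ := h s t hs ht
      rw [Finset.coe_smul_finset, card_fixingSubgroup_smul]
  obtain ⟨s0, c0⟩ := ex i (by omega)
  obtain ⟨s1, c1⟩ := ex (i + 1) (by omega)
  obtain ⟨s2, c2⟩ := ex (i + 2) hkn
  have triv : ∀ s : Finset α, i + 1 ≤ s.card → ∀ g : G, (∀ x ∈ s, g • x = x) → g = 1 := by
    intro s hs g hg
    obtain ⟨s', h', c'⟩ := Finset.exists_subset_card_eq hs
    have : Nat.card (fixingSubgroup G (s' : Set α)) = 1 := by
      by_contra hc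
      have : 0 < Nat.card (fixingSubgroup G (s' : Set α)) := Nat.card_pos
      exact hnt (trans_of_card_fixing (by omega) (by omega) (by omega)
        (fun s hs => eqc _ h1 s s' hs c') (fun s hs => eqc _ h2 s s2 hs c2))
    exact mem_bot.mp (card_eq_one.mp this ▸ (mem_fixingSubgroup_iff G).mpr fun x hx => hg x (h' hx))
  set H := fixingSubgroup G (s0 : Set α) with hH
  have semi : ∀ g ∈ H, ∀ x ∉ s0, g • x = x → g = 1 := fun g hg x hx e =>
    triv (insert x s0) (by rw [Finset.card_insert_of_notMem hx, c0]) g fun y hy => by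
      rcases Finset.mem_insert.mp hy with rfl | hy
      exacts [e, (mem_fixingSubgroup_iff G).mp hg y hy]
  have cc : Nat.card ((s0 : Set α)ᶜ : Set α) = n - i := by
    have := ncard_compl_finset s0
    rw [Nat.card_coe_set_eq]; omega
  obtain ⟨m, hm⟩ := Fx.card_dvd_of_semiregular H (s0 : Set α)ᶜ
    (fun g hg x hx => smul_notMem_of_fix ((mem_fixingSubgroup_iff G).mp hg) hx) semi
  rw [cc] at hm
  set l := Nat.card H with hl
  have l0 : 0 < l := Nat.card_pos
  have m2 : 2 ≤ m := by
    by_contra hc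
    have : m = 1 := by
      have : m ≠ 0 := by rintro rfl; omega
      omega
    subst this
    refine hnt (isMultiplyPretransitive_succ_of_fix ht s0 c0 fun a ha b hb => ?_)
    have e := Fx.card_orbit_mul H a
    rw [show H ⊓ stabilizer G a = ⊥ from eq_bot_iff.mpr fun g hg => semi g hg.1 a ha hg.2,
      card_bot, mul_one] at e
    have : orbit H a = (s0 : Set α)ᶜ := Set.eq_of_subset_of_ncard_le (fun y hy => by
      obtain ⟨g, hg, rfl⟩ := Fx.mem_orbit_sub.mp hy
      exact smul_notMem_of_fix ((mem_fixingSubgroup_iff G).mp hg) ha)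
      (by rw [← Nat.card_coe_set_eq, ← Nat.card_coe_set_eq, e, cc]; omega)
    obtain ⟨g, hg, e⟩ := Fx.mem_orbit_sub.mp (this ▸ hb : b ∈ orbit H a)
    exact ⟨g, (mem_fixingSubgroup_iff G).mp hg, e⟩
  have cG : Nat.card G = n.choose i * i.factorial * l := by
    have e : (s0 : Set α).ncard = i := by rw [Set.ncard_coe_finset, c0]
    have := IsMultiplyPretransitive.index_of_fixingSubgroup_eq (G := G) _ (e ▸ ht)
    rw [← index_mul_card H, this, e, hN]
  have cA := fun s hs => h1.card_eq s hs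
  have cB := h2.card_eq s2 c2
  rw [← hn] at cA cB
  set a := Nat.card (stabilizer G s1) with ha
  set b := Nat.card (stabilizer G s2) with hb
  have p0 : 0 < n.choose i := Nat.choose_pos (by omega)
  have p1 : 0 < n.choose (i + 1) := Nat.choose_pos (by omega)
  have cA' : ∀ s : Finset α, s.card = i + 1 → Nat.card (stabilizer G s) = a := fun s hs =>
    Nat.eq_of_mul_eq_mul_left p1 ((cA s hs).trans (cA s1 c1).symm)
  have r1 : m * a = (i + 1).factorial := by
    apply Nat.eq_of_mul_eq_mul_left (Nat.mul_pos p0 l0)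
    calc n.choose i * l * (m * a) = n.choose i * (n - i) * a := by rw [hm]; ring
      _ = (i + 1) * (n.choose (i + 1) * a) := by rw [← Nat.choose_succ_right_eq]; ring
      _ = _ := by rw [cA s1 c1, cG, Nat.factorial_succ]; ring
  have r2 : (n - (i + 1)) * b = (i + 2) * a := by
    apply Nat.eq_of_mul_eq_mul_left p1
    calc n.choose (i + 1) * ((n - (i + 1)) * b) = (i + 2) * (n.choose (i + 2) * b) := by
          rw [← mul_assoc, ← Nat.choose_succ_right_eq]; ring
      _ = _ := by rw [cB, ← cA s1 c1]; ring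
  by_cases hk : i + 2 = n
  · refine Or.inl ⟨hk, Perm.eq_alternatingGroup_of_index_eq_two ?_⟩
    have l1 : l = 1 := by
      have : l * 2 ≤ l * m := Nat.mul_le_mul_left l m2
      omega
    have e := G.index_mul_card
    rw [Nat.card_eq_fintype_card (α := Perm α), Fintype.card_perm, ← hn, cG, l1, mul_one,
      ← Nat.choose_mul_factorial_mul_factorial (show i ≤ n by omega),
      show n - i = 2 by omega, mul_comm] at e
    exact Nat.eq_of_mul_eq_mul_left (Nat.mul_pos p0 i.factorial_pos) e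
  right
  have i3 : i ≤ 3 := by
    by_contra hc
    have := card_le (by omega) h1 ht hnt
    omega
  have fixle : ∀ t : G, t ≠ 1 → (Hall4.Fix α t).card ≤ i := fun t h => by
    by_contra hc
    exact h (triv _ (by omega) t fun x hx => Hall4.mem_Fix.mp hx)
  have pd : ∀ p c j : ℕ, p.Prime → Homog G α j → j + p = n → i + 1 ≤ p →
      Nat.card G = n.choose j * (p * c) → c % p ∣ p - 1 := fun p c j hp hj e1 e2 e3 => by
    obtain ⟨s, hs⟩ := ex j (by omega)
    have e4 := hj.card_eq s hs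
    rw [e3, ← hn] at e4
    have e4 := Nat.eq_of_mul_eq_mul_left (Nat.choose_pos (by omega)) e4
    obtain ⟨k, n', a1, a2, a3⟩ := prime_compl (G := G) hp s (by omega) (fun g hg =>
      triv sᶜ (by rw [Finset.card_compl]; omega) g fun x hx => hg x (Finset.mem_compl.mp hx))
      (e4 ▸ Dvd.intro _ rfl)
    exact no_kn hp.one_lt a1 a2 (e4.symm.trans a3)
  have hom : ∀ j ≤ i, Homog G α j := fun j hj =>
    homog_of_multiply (isMultiplyPretransitive_of_le (n := i) hj (by omega))
  have hnm : n = m * l + i := by rw [mul_comm]; omega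
  interval_cases i
  · exfalso
    have hma : m = 2 ∧ a = 1 := by
      have : m ≤ 2 := Nat.le_of_dvd (by norm_num) (Dvd.intro _ r1)
      have : m = 2 := by omega
      subst this
      simp at r1; omega
    rw [hma.2] at r2
    rw [hma.1] at hnm
    have : n - 2 ≤ 3 := Nat.le_of_dvd (by norm_num) (Dvd.intro _ r2)
    have n5 : n = 5 := by omega
    have : l = 2 := by omega
    exact hnt (h1.two_trans_of_even (by rw [cG, this]; exact (even_two).mul_left _))
  · rcases arith3 r1 m2 hnm r2 (by omega) with ⟨e1, e2⟩ | ⟨e1, e2, e3⟩ | ⟨e1, e2⟩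
    · exact Or.inl ⟨e1, rfl, by rw [cG, e1, e2]; rfl⟩
    · exfalso
      obtain ⟨t, t1, t2⟩ := Agent.Inv.exists_involution_mem_of_even (H := H)
        (by rw [← hl, e2]; exact even_two)
      have f1 := fixle t (Agent.Inv.ne_one_of_two t2)
      have f2 : s0 ⊆ Hall4.Fix α t := fun x hx =>
        Hall4.mem_Fix.mpr ((mem_fixingSubgroup_iff G).mp t1 x hx)
      have := Finset.card_le_card f2
      obtain ⟨Γ, g1, g2, -⟩ := exists_invariant (X := α) (Agent.Inv.mul_self_of_two t2) 1 1
        (by omega) (by omega)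
      have := Agent.Inv.even_card_of_involution_mem g2 t2
      rw [cA' Γ g1, e3] at this
      exact absurd this (by decide)
    · exact absurd (pd 11 30 0 (by norm_num) (hom 0 (by omega)) (by omega) (by omega)
        (by rw [cG, e1, e2]; rfl)) (by decide)
  · rcases arith4 r1 m2 hnm r2 (by omega) with ⟨e1, e2⟩ | ⟨e1, e2 | e2 | e2⟩ |
      ⟨e1, e2 | ⟨e2, e3⟩⟩ | ⟨e1, e2⟩ | ⟨e1, e2⟩ | ⟨e1, e2 | e2 | e2⟩
    · exact Or.inr (Or.inl ⟨e1, rfl, by rw [cG, e1, e2]; rfl⟩)
    · exact Or.inr (Or.inr ⟨e1, rfl, Or.inl (by rw [cG, e1, e2]; rfl)⟩)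
    · exact absurd (pd 7 4 2 (by norm_num) (hom 2 (by omega)) (by omega) (by omega)
        (by rw [cG, e1, e2]; rfl)) (by decide)
    · exact Or.inr (Or.inr ⟨e1, rfl, Or.inr (by rw [cG, e1, e2]; rfl)⟩)
    · exact absurd (pd 7 60 0 (by norm_num) (hom 0 (by omega)) (by omega) (by omega)
        (by rw [cG, e1, e2]; rfl)) (by decide)
    · exfalso
      obtain ⟨t, t2⟩ := Agent.Inv.exists_involution_of_even (G := G)
        (by rw [cG, e1, e2]; decide)
      have f1 := fixle t (Agent.Inv.ne_one_of_two t2)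
      obtain ⟨Γ, g1, g2, g3⟩ := exists_invariant (X := α) (Agent.Inv.mul_self_of_two t2) 0 2
        (by omega) (by omega)
      exact not_six g1 (by rw [cA' Γ g1, e3]) (triv Γ (by omega)) g2 (g3 rfl)
    · exact absurd (pd 11 30 1 (by norm_num) (hom 1 (by omega)) (by omega) (by omega)
        (by rw [cG, e1, e2]; rfl)) (by decide)
    · exact absurd (pd 23 154 1 (by norm_num) (hom 1 (by omega)) (by omega) (by omega)
        (by rw [cG, e1, e2]; rfl)) (by decide)
    · exact absurd (pd 19 612 0 (by norm_num) (hom 0 (by omega)) (by omega) (by omega)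
        (by rw [cG, e1, e2]; rfl)) (by decide)
    · exact absurd (pd 19 1224 0 (by norm_num) (hom 0 (by omega)) (by omega) (by omega)
        (by rw [cG, e1, e2]; rfl)) (by decide)
    · exact absurd (pd 19 2448 0 (by norm_num) (hom 0 (by omega)) (by omega) (by omega)
        (by rw [cG, e1, e2]; rfl)) (by decide)

theorem pred_trans {α : Type*} [Fintype α] [DecidableEq α] (G : Subgroup (Perm α)) {k : ℕ}
    (hkn : 2 * k ≤ Fintype.card α) (hh : Homog G α k) :
    ∀ j, j + 1 ≤ k → IsMultiplyPretransitive G α j := by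
  intro j
  induction j with
  | zero => exact fun _ => is_zero_pretransitive'
  | succ i ih =>
    intro hj
    rcases Nat.eq_zero_or_pos i with rfl | hi
    · exact is_one_pretransitive_iff.mpr (homog_one_iff.mp (hh.of_le (by omega) (by omega)))
    by_contra hnt
    have := exceptions G hi (by omega) (ih (by omega)) hnt (hh.of_le (by omega) (by omega))
      (hh.of_le (by omega) (by omega))
    omega

end Cfsg.Agent.Perm.LW
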