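import Mathlib
import Cfsg.Prelude.Def_Perm

/-!
Elementary facts on near-fields.
-/

set_option autoImplicit false

namespace Cfsg.Agent.Perm

open Cfsg

variable {F : Type*} [NearField F]

/-- Right multiplication in a near-field as an additive homomorphism. -/
def nfMulRight (c : F) : F →+ F := AddMonoidHom.mk' (fun x => x * c) fun a b =>
  NearField.right_distrib a b c

theorem nf_zero_mul (c : F) : (0 : F) * c = 0 := (nfMulRight c).map_zero

theorem nf_neg_mul (a c : F) : (-a) * c = -(a * c) := (nfMulRight c).map_neg a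

theorem nf_sub_mul (a b c : F) : (a - b) * c = a * c - b * c := (nfMulRight c).map_sub a b

theorem nf_mul_ne_zero {a b : F} (ha : a ≠ 0) (hb : b ≠ 0) : a * b ≠ 0 := by
  obtain ⟨a', h1, -⟩ := NearField.exists_inv a ha
  obtain ⟨b', h2, -⟩ := NearField.exists_inv b hb
  intro h
  have : a * b * b' * a' = 1 := by rw [mul_assoc a, h2, mul_one, h1]
  rw [h, nf_zero_mul, nf_zero_mul] at this
  exact NearField.zero_ne_one this

theorem nf_inv_ne_zero {a b : F} (h : a * b = 1) : b ≠ 0 := by
  rintro rfl
  rw [NearField.mul_zero] at h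
  exact NearField.zero_ne_one h

end Cfsg.Agent.Perm
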