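import Mathlib
import Cfsg.Agent.GT.FrobeniusComplement

/-!
# Groups in which every element has order `p` or order prime to `p`

The main result `PElt.sylow_inf_eq_bot`: in such a finite group two distinct Sylow
`p`-subgroups meet trivially.
-/

set_option autoImplicit false

namespace Cfsg.Agent.Perm.PElt

open Cfsg.Agent.GT.Frob

/-- every element has order dividing `p` or prime to `p` -/
def PP (p : ℕ) (G : Type*) [Group G] : Prop := ∀ g : G, g ^ p = 1 ∨ (orderOf g).Coprime p

variable {p : ℕ}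

theorem eq_one_of_cop {G : Type*} [Group G] {g : G} {m n : ℕ} (h : m.Coprime n)
    (hm : g ^ m = 1) (hn : g ^ n = 1) : g = 1 :=
  orderOf_eq_one_iff.mp (Nat.eq_one_of_dvd_coprimes h (orderOf_dvd_of_pow_eq_one hm)
    (orderOf_dvd_of_pow_eq_one hn))

theorem PP.subgroup {G : Type*} [Group G] (h : PP p G) (K : Subgroup G) : PP p K := fun g =>
  (h g).imp (fun e => Subtype.ext e) fun e => by rwa [Subgroup.orderOf_coe] at e

theorem PP.pow_of_commute {G : Type*} [Group G] (h : PP p G) {x y : G} (hx : x ^ p = 1)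
    (hx1 : x ≠ 1) (hc : Commute x y) : y ^ p = 1 := by
  rcases h (x * y) with h1 | h1
  · rwa [hc.mul_pow, hx, one_mul] at h1
  rcases h y with h2 | h2
  · exact h2
  exfalso
  apply hx1
  refine eq_one_of_cop (Nat.Coprime.mul_left h1 h2) ?_ hx
  have h3 : (x * y) ^ (orderOf (x * y) * orderOf y) = 1 := by
    rw [pow_mul, pow_orderOf_eq_one, one_pow]
  rwa [hc.mul_pow, mul_comm (orderOf (x * y)), pow_mul y, pow_orderOf_eq_one, one_pow, mul_one,
    mul_comm] at h3

theorem PP.pow_of_isPGroup {G : Type*} [Group G] (h : PP p G) {S : Subgroup G}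
    (hS : IsPGroup p S) {x : G} (hx : x ∈ S) : x ^ p = 1 := by
  rcases h x with h1 | h1
  · exact h1
  obtain ⟨k, hk⟩ := hS ⟨x, hx⟩
  rw [eq_one_of_cop (h1.pow_right k) (pow_orderOf_eq_one x) (congrArg Subtype.val hk), one_pow]

section Abstract

variable {A M : Type*} [Group A] [CommGroup M] [MulDistribMulAction A M]

theorem mem_coset_pow {X : Subgroup A} {y : A} (hy : y ∈ Subgroup.normalizer (X : Set A))
    {u : A} (hu : u ∈ X) (j : ℕ) : (y ^ j)⁻¹ * (y * u) ^ j ∈ X := by
  induction j with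
  | zero => simp
  | succ j ih =>
    have h := X.mul_mem ((Subgroup.mem_normalizer_iff''.mp hy _).mp ih) hu
    convert h using 1
    rw [pow_succ, pow_succ]; group

/-- Coset lemma with vanishing norms. -/
theorem pow_card_of_norm {X : Subgroup A} [Finite X] {y : A}
    (hy : y ∈ Subgroup.normalizer (X : Set A)) (hp : p.Prime)
    (h1 : ∀ u ∈ X, (y * u) ^ p = 1)
    (h2 : ∀ u ∈ X, ∀ v : M, ∏ j ∈ Finset.range p, (y * u) ^ j • v = 1)
    (h3 : ∀ v : M, (∀ u ∈ X, u • v = v) → v = 1) (v : M) : v ^ Nat.card X = 1 := by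
  classical
  have := Fintype.ofFinite X
  have key : ∀ j ∈ Finset.range p, j ≠ 0 → ∏ u : X, (y * u) ^ j • v = 1 := by
    intro j hj hj0
    have hcop : j.Coprime p :=
      ((Nat.coprime_of_lt_prime hj0 (Finset.mem_range.mp hj) hp)).symm
    obtain ⟨m, -, hm⟩ := Nat.exists_mul_mod_eq_one_of_coprime hcop hp.one_lt
    let f : X → X := fun u => ⟨_, mem_coset_pow hy u.2 j⟩
    have hf : Function.Injective f := by
      intro u u' huu
      have h4 : (y * u) ^ j = (y * u') ^ j := mul_left_cancel (congrArg Subtype.val huu)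
      have h5 : ∀ w : X, ((y * w) ^ j) ^ m = y * w := fun w => by
        rw [← pow_mul, pow_eq_pow_mod _ (h1 w w.2), hm, pow_one]
      apply Subtype.ext
      apply mul_left_cancel (a := y)
      rw [← h5, h4, h5]
    have h6 := prod_smul_eq_one X h3 v
    rw [← (Equiv.ofBijective f (Finite.injective_iff_bijective.mp hf)).prod_comp] at h6
    have h7 := congrArg (fun w => y ^ j • w) h6
    simp only [smul_one, Finset.smul_prod'] at h7
    rw [← h7]
    exact Finset.prod_congr rfl fun u _ => by simp [f, smul_smul]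
  have h8 : ∏ u : X, ∏ j ∈ Finset.range p, (y * u) ^ j • v = 1 :=
    Finset.prod_eq_one fun u _ => h2 u u.2 v
  rw [Finset.prod_comm, Finset.prod_eq_single 0 key (by simp [hp.ne_zero])] at h8
  simpa [Nat.card_eq_fintype_card] using h8

/-- The hypotheses on an action on an elementary abelian `p`-group. -/
structure Act (p : ℕ) (A M : Type*) [Group A] [CommGroup M] [MulDistribMulAction A M] : Prop where
  pp : PP p A
  exp : ∀ v : M, v ^ p = 1
  fix : ∀ (g : A) (v : M), g • v = v → v = 1 ∨ g ^ p = 1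
  nrm : ∀ g : A, g ^ p = 1 → ∀ v : M, ∏ j ∈ Finset.range p, g ^ j • v = 1

theorem Act.subgroup (h : Act p A M) (K : Subgroup A) : Act p K M where
  pp := h.pp.subgroup K
  exp := h.exp
  fix g v e := (h.fix g v e).imp_right fun e => Subtype.ext e
  nrm g e v := h.nrm g (congrArg Subtype.val e) v

variable [Finite A] [Nontrivial M]

theorem Act.eq_bot (h : Act p A M) (hp : p.Prime) {X : Subgroup A}
    (hX : (Nat.card X).Coprime p) {y : A} (hy : y ∈ Subgroup.normalizer (X : Set A))
    (hyp : y ^ p = 1) (hy1 : y ≠ 1) : X = ⊥ := by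
  by_contra hne
  obtain ⟨⟨x, hx⟩, hx1⟩ := Subgroup.ne_bot_iff_exists_ne_one.mp hne
  have hXe : ∀ u ∈ X, u ^ Nat.card X = 1 := fun u hu =>
    congrArg Subtype.val (pow_card_eq_one' (x := (⟨u, hu⟩ : X)))
  have h1 : ∀ u ∈ X, (y * u) ^ p = 1 := fun u hu => by
    refine (h.pp _).resolve_right fun hc => hy1 ?_
    have h2 := mem_coset_pow hy hu (orderOf (y * u))
    rw [pow_orderOf_eq_one, mul_one, X.inv_mem_iff] at h2
    refine eq_one_of_cop (Nat.Coprime.mul_left hc hX) ?_ hyp
    rw [pow_mul, hXe _ h2]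
  obtain ⟨v, hv⟩ := exists_ne (1 : M)
  refine hv (eq_one_of_cop hX ?_ (h.exp v))
  refine pow_card_of_norm hy hp h1 (fun u hu => h.nrm _ (h1 u hu)) (fun w hw => ?_) v
  refine (h.fix x w (hw x hx)).resolve_right fun e => hx1 (Subtype.ext ?_)
  exact eq_one_of_cop hX (hXe x hx) e

omit [Finite A] in
theorem Act.smul_eq_of_invol (h : Act p A M) [Finite M] (hp : p.Prime) (hp2 : p ≠ 2) {t : A}
    (ht : orderOf t = 2) {u : A} (hu : u ^ p = 1) (v : M) : u • v = v := by
  have hc2 : Nat.Coprime 2 p := (Nat.coprime_primes Nat.prime_two hp).mpr hp2.symm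
  have ht2 : t ^ 2 = 1 := ht ▸ pow_orderOf_eq_one t
  have ht1 : t ≠ 1 := fun e => by simp [e] at ht
  have hfix : ∀ w : M, t • w = w → w = 1 := fun w hw =>
    (h.fix t w hw).resolve_right fun e => ht1 (eq_one_of_cop hc2 ht2 e)
  have hinv : ∀ w : M, t • w = w⁻¹ := fun w => by
    rw [eq_inv_iff_mul_eq_one]
    apply hfix
    rw [smul_mul', smul_smul, ← sq, ht2, one_smul, mul_comm]
  let φ := MulDistribMulAction.toMulAut A M
  have hφ : ∀ a w, φ a w = a • w := fun _ _ => rfl
  have hcomm : Commute (φ t) (φ u) := by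
    ext w
    simp only [MulAut.mul_apply, hφ, hinv, smul_inv']
  have hu' : φ u ^ p = 1 := by rw [← map_pow, hu, map_one]
  have ht' : φ t ^ 2 = 1 := by rw [← map_pow, ht2, map_one]
  suffices e : φ u = 1 by rw [← hφ, e]; rfl
  rcases h.pp (t * u) with h1 | h1
  · exfalso
    have h2 := congrArg φ h1
    rw [map_pow, map_mul, hcomm.mul_pow, hu', mul_one, map_one] at h2
    obtain ⟨w, hw⟩ := exists_ne (1 : M)
    refine hw (hfix w ?_)
    rw [← hφ, eq_one_of_cop hc2 ht' h2]; rfl
  · refine eq_one_of_cop (Nat.Coprime.mul_left h1 hc2) ?_ hu'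
    have h2 : φ (t * u) ^ (orderOf (t * u) * 2) = 1 := by
      rw [pow_mul, ← map_pow, pow_orderOf_eq_one, map_one, one_pow]
    rwa [map_mul, hcomm.mul_pow, mul_comm (orderOf (t * u)), pow_mul (φ t), ht', one_pow, one_mul,
      mul_comm] at h2

theorem Act.isPGroup_of_closure (h : Act p A M) [Finite M] [hp : Fact p.Prime]
    (hcl : Subgroup.closure {u : A | u ^ p = 1} = ⊤) : IsPGroup p A := by
  classical
  by_contra hne
  have hex : ∃ r, r.Prime ∧ r ≠ p ∧ r ∣ Nat.card A := by
    by_contra hn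
    push Not at hn
    refine hne (IsPGroup.of_card (Nat.eq_prime_pow_of_unique_prime_dvd Nat.card_pos.ne' ?_))
    intro d hd hdA
    by_contra e
    exact hn d hd e hdA
  obtain ⟨hr, hrp, hrA⟩ := Nat.find_spec hex
  have hmin : ∀ s, s.Prime → s ≠ p → s ∣ Nat.card A → Nat.find hex ≤ s := fun s h1 h2 h3 =>
    Nat.find_min' hex ⟨h1, h2, h3⟩
  generalize Nat.find hex = r at *
  have := Fact.mk hr
  have hcop : r.Coprime p := (Nat.coprime_primes hr hp.out).mpr hrp
  by_cases hr2 : r = 2
  · subst hr2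
    obtain ⟨t, ht⟩ := exists_prime_orderOf_dvd_card' 2 hrA
    obtain ⟨v, hv⟩ := exists_ne (1 : M)
    have h1 : MulAction.stabilizer A v = ⊤ := by
      rw [eq_top_iff, ← hcl, Subgroup.closure_le]
      exact fun u hu => h.smul_eq_of_invol hp.out hrp.symm ht hu v
    have h2 : t • v = v := show t ∈ MulAction.stabilizer A v from h1 ▸ Subgroup.mem_top t
    have h3 := eq_one_of_cop hcop (ht ▸ pow_orderOf_eq_one t) ((h.fix t v h2).resolve_left hv)
    simp [h3] at ht
  let R : Sylow r A := default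
  obtain ⟨k, hk⟩ := R.2.exists_card_eq
  have hRp : (Nat.card R).Coprime p := hk ▸ hcop.pow_left k
  have hR1 : (R : Subgroup A) ≠ ⊥ := R.ne_bot_of_dvd_card hrA
  have hfpf : HasFpfAction R := hasFpfAction_of_finite (MulDistribMulAction.toMulAut R M)
    fun a ha v hv => (h.fix a v hv).resolve_right fun e =>
      ha (eq_one_of_cop hRp pow_card_eq_one' (Subtype.ext e))
  have hcyc : IsCyclic R := by
    have := hfpf.isCyclic_of_isPGroup hr2 (P := ⊤) (R.2.to_subgroup ⊤)
    exact isCyclic_of_surjective Subgroup.topEquiv.toMonoidHom Subgroup.topEquiv.surjective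
  have hN : ¬ p ∣ Nat.card (Subgroup.normalizer (R : Set A)) := fun hd => by
    obtain ⟨y, hy⟩ := exists_prime_orderOf_dvd_card' p hd
    refine hR1 (h.eq_bot hp.out hRp y.2 ?_ fun e => ?_)
    · exact congrArg Subtype.val (hy ▸ pow_orderOf_eq_one y)
    · rw [show y = 1 from Subtype.ext e, orderOf_one] at hy
      exact hp.out.one_lt.ne hy
  have hNC : Subgroup.normalizer (R : Set A) ≤ Subgroup.centralizer (R : Set A) := by
    have key := Subgroup.card_dvd_of_injective _
      (QuotientGroup.kerLift_injective (R : Subgroup A).normalizerMonoidHom)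
    rw [Subgroup.normalizerMonoidHom_ker, ← Subgroup.index, ← Subgroup.relIndex] at key
    refine Subgroup.relIndex_eq_one.mp (Nat.eq_one_of_dvd_coprimes ?_ dvd_rfl key)
    rcases Nat.eq_zero_or_pos k with h0 | h0
    · rw [hcyc.card_mulAut, hk, h0, pow_zero, Nat.totient_one]
      apply Nat.coprime_one_right
    rw [hcyc.card_mulAut, hk, Nat.totient_prime_pow Fact.out h0]
    refine (Nat.Coprime.pow_right _ ?_).mul_right ?_
    · apply Nat.Coprime.coprime_dvd_left (Subgroup.relIndex_dvd_of_le_left _ R.le_centralizer)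
      apply Nat.Coprime.coprime_dvd_left (Subgroup.relIndex_dvd_index_of_le R.le_normalizer)
      rw [Nat.coprime_comm, Nat.Prime.coprime_iff_not_dvd Fact.out]
      exact R.not_dvd_index
    · apply Nat.Coprime.coprime_dvd_left <| Subgroup.relIndex_dvd_card ..
      refine Nat.coprime_of_dvd fun s hs hsN hs1 => ?_
      have h1 := hmin s hs (fun e => hN (e ▸ hsN)) (hsN.trans (Subgroup.card_subgroup_dvd_card _))
      have h2 := Nat.le_of_dvd (by have := hr.one_lt; omega) hs1
      have := hr.one_lt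
      omega
  have hker : (MonoidHom.transferSylow R hNC).ker = ⊤ := by
    rw [eq_top_iff, ← hcl, Subgroup.closure_le]
    intro u hu
    refine eq_one_of_cop hRp pow_card_eq_one' ?_
    rw [← map_pow, show u ^ p = 1 from hu, map_one]
  have hc := MonoidHom.ker_transferSylow_isComplement' R hNC
  rw [hker] at hc
  exact hR1 (by simpa using hc.disjoint)

theorem Act.isPGroup_closure (h : Act p A M) [Finite M] [Fact p.Prime] :
    IsPGroup p (Subgroup.closure {u : A | u ^ p = 1}) := by
  refine (h.subgroup _).isPGroup_of_closure ?_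
  convert Subgroup.closure_closure_coe_preimage (k := {u : A | u ^ p = 1}) using 2
  ext u
  exact Subtype.ext_iff

end Abstract

section Ambient

open scoped IsMulCommutative

variable {G : Type*} [Group G] [Finite G] [hp : Fact p.Prime]

omit [Finite G] hp in
theorem mul_pow_eq_prod {V : Subgroup G} [IsMulCommutative V] (g : Subgroup.normalizer (V : Set G))
    (v : V) (n : ℕ) : ((v : G) * g) ^ n =
      (∏ j ∈ Finset.range n, V.normalizerMonoidHom (g ^ j) v : V) * (g : G) ^ n := by
  induction n with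
  | zero => simp
  | succ n ih =>
    rw [pow_succ, ih, Finset.prod_range_succ, Subgroup.coe_mul]
    have : ((V.normalizerMonoidHom (g ^ n) v : V) : G) = (g : G) ^ n * v * ((g : G) ^ n)⁻¹ := rfl
    rw [this, pow_succ]; group

/-- The elements of order `p` normalising a nontrivial abelian `p`-subgroup lie in a
`p`-subgroup. -/
theorem PP.exists_isPGroup (h : PP p G) {V : Subgroup G} [IsMulCommutative V] (hV : V ≠ ⊥)
    (hVp : IsPGroup p V) : ∃ S : Subgroup G, IsPGroup p S ∧
      ∀ u ∈ Subgroup.normalizer (V : Set G), u ^ p = 1 → u ∈ S := by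
  let A := Subgroup.normalizer (V : Set G)
  let _ := MulDistribMulAction.compHom V V.normalizerMonoidHom
  have hs : ∀ (a : A) (v : V), ((a • v : V) : G) = a * v * (a : G)⁻¹ := fun _ _ => rfl
  have := (Subgroup.nontrivial_iff_ne_bot V).mpr hV
  have hexp : ∀ v : V, v ^ p = 1 := fun v => Subtype.ext (h.pow_of_isPGroup hVp v.2)
  have hA : Act p A V := by
    refine ⟨h.subgroup _, hexp, fun g v e => ?_, fun g e v => ?_⟩
    · refine or_iff_not_imp_left.mpr fun hv => Subtype.ext ?_
      have h1 := congrArg Subtype.val e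
      rw [hs, mul_inv_eq_iff_eq_mul] at h1
      exact h.pow_of_commute (congrArg Subtype.val (hexp v)) (fun e => hv (Subtype.ext e)) h1.symm
    · have e' : (g : G) ^ p = 1 := congrArg Subtype.val e
      rcases h ((v : G) * g) with h1 | h1
      · rw [mul_pow_eq_prod, e', mul_one] at h1
        exact Subtype.ext h1
      · have h2 := pow_orderOf_eq_one ((v : G) * g)
        rw [mul_pow_eq_prod] at h2
        have h3 : V.normalizerMonoidHom g = 1 := by
          refine eq_one_of_cop h1 ?_ (by rw [← map_pow, e, map_one])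
          ext w
          rw [← map_pow]
          have h4 := eq_inv_of_mul_eq_one_right h2
          change (g : G) ^ _ * w * ((g : G) ^ _)⁻¹ = w
          rw [h4, ← Subgroup.coe_inv, ← Subgroup.coe_inv, ← Subgroup.coe_mul, ← Subgroup.coe_mul,
            mul_inv_cancel_comm]
        have h5 : ∀ j : ℕ, g ^ j • v = v := fun j => by
          change V.normalizerMonoidHom (g ^ j) v = v
          rw [map_pow, h3, one_pow]; rfl
        simp only [h5, Finset.prod_const, Finset.card_range, hexp]
  exact ⟨_, hA.isPGroup_closure.map A.subtype, fun u hu e =>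
    ⟨⟨u, hu⟩, Subgroup.subset_closure (Subtype.ext e), rfl⟩⟩

/-- Distinct Sylow `p`-subgroups meet trivially. -/
theorem PP.sylow_inf_eq_bot (h : PP p G) {P Q : Sylow p G} (hPQ : P ≠ Q) :
    (P : Subgroup G) ⊓ Q = ⊥ := by
  by_contra hne
  let T : Set (Subgroup G) := {D | ∃ P Q : Sylow p G, P ≠ Q ∧ D = (P : Subgroup G) ⊓ Q ∧ D ≠ ⊥}
  obtain ⟨D, ⟨P, Q, hPQ, hD, hD1⟩, hmax⟩ := (Set.toFinite T).exists_maximal ⟨_, P, Q, hPQ, rfl, hne⟩
  have hDp : IsPGroup p D := hD ▸ P.2.to_inf_left
  have : Nontrivial D := (Subgroup.nontrivial_iff_ne_bot D).mpr hD1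
  have := hDp.center_nontrivial
  let V := D ⊓ Subgroup.centralizer D
  have hV1 : V ≠ ⊥ := by
    obtain ⟨⟨z, hz⟩, hz1⟩ := exists_ne (1 : Subgroup.center D)
    intro h
    have : (z : G) ∈ V :=
      ⟨z.2, fun y hy => congrArg Subtype.val (Subgroup.mem_center_iff.mp hz ⟨y, hy⟩)⟩
    rw [h, Subgroup.mem_bot] at this
    exact hz1 (Subtype.ext (Subtype.ext this))
  have : IsMulCommutative V := ⟨⟨fun a b => Subtype.ext (b.2.2 a a.2.1)⟩⟩
  have hN : Subgroup.normalizer (D : Set G) ≤ Subgroup.normalizer (V : Set G) := fun a ha => by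
    refine Subgroup.inf_normalizer_le_normalizer_inf ⟨ha, ?_⟩
    refine Subgroup.le_normalizer_iff.mpr (fun g hg c hc k hk => ?_) ha
    have h1 : g⁻¹ * k * g ∈ D := (Subgroup.mem_normalizer_iff''.mp hg k).mp hk
    have h2 := hc _ h1
    calc k * (g * c * g⁻¹) = g * (g⁻¹ * k * g * c) * g⁻¹ := by group
      _ = g * c * g⁻¹ * k := by rw [h2]; group
  obtain ⟨S, hS, hSm⟩ := h.exists_isPGroup hV1 hDp.to_inf_left
  obtain ⟨R, hR⟩ := hS.exists_le_sylow
  have key : ∀ P Q : Sylow p G, P ≠ Q → D = (P : Subgroup G) ⊓ Q → P = R := by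
    intro P Q hPQ hD
    by_contra hPR
    have hlt : D.subgroupOf P < ⊤ := by
      rw [lt_top_iff_ne_top, Ne, Subgroup.subgroupOf_eq_top, hD, le_inf_iff]
      exact fun e => hPQ (Sylow.ext (P.is_maximal' Q.2 e.2).symm)
    have := P.2.isNilpotent
    obtain ⟨x, hx, hxD⟩ := SetLike.exists_of_lt (Group.normalizerCondition_of_isNilpotent _ hlt)
    have hDP : D ≤ P := hD ▸ inf_le_left
    have hle : ∀ y ∈ (P : Subgroup G), y ∈ Subgroup.normalizer (D : Set G) → y ∈ (R : Subgroup G) :=
      fun y hy hyN => hR (hSm y (hN hyN) (h.pow_of_isPGroup P.2 hy))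
    have hDR : D ≤ (P : Subgroup G) ⊓ R := fun y hy =>
      ⟨hDP hy, hle y (hDP hy) (Subgroup.le_normalizer hy)⟩
    have h1 := hmax ⟨P, R, hPR, rfl, fun e => hD1 (le_bot_iff.mp (e ▸ hDR))⟩ hDR
    refine hxD (h1 ⟨x.2, hle x x.2 ?_⟩)
    rw [← Subgroup.subgroupOf_normalizer_eq hDP] at hx
    exact hx
  exact hPQ ((key P Q hPQ hD).trans (key Q P hPQ.symm (hD.trans (inf_comm _ _))).symm)

end Ambient

end Cfsg.Agent.Perm.PElt
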