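import Mathlib
import Cfsg.Agent.Perm.PGDesign
import Cfsg.Agent.Perm.PGMain
import Cfsg.Agent.GT.Fitting
import Cfsg.Agent.GT.Cores
import Cfsg.Agent.GT.HallTools
import Cfsg.Agent.GT.FixedPointFreeThompson

/-!
# Ito's theorem on symmetric designs with a block stabiliser unfaithful on the block
-/

set_option autoImplicit false

namespace Cfsg.Agent.Perm.PG

open Subgroup MulAction Finset Cfsg.Agent.Perm.Der Matrix

section Abs

variable {G Ω Y : Type*} [Group G] [Finite G] [MulAction G Ω] [MulAction G Y] [Fintype Ω]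
  [Fintype Y] [DecidableEq Ω] [DecidableEq Y] {R : Ω → Y → Prop} [∀ x D, Decidable (R x D)]
  {k l : ℕ}

/-- The pointwise stabiliser of a block. -/
def Nb (G : Type*) [Group G] [MulAction G Ω] (R : Ω → Y → Prop) (B : Y) : Subgroup G :=
  fixingSubgroup G {x | R x B}

omit [Finite G] [MulAction G Y] [Fintype Ω] [Fintype Y] [DecidableEq Ω] [DecidableEq Y]
  [∀ x D, Decidable (R x D)] in
theorem mem_Nb {B : Y} {g : G} : g ∈ Nb G R B ↔ ∀ x, R x B → g • x = x :=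
  mem_fixingSubgroup_iff G

omit [Finite G] [DecidableEq Ω] [DecidableEq Y] in
theorem Des.conj_Nb (h : Des G R k l) {B C : Y} {s g : G} (e : s • B = C) (hg : g ∈ Nb G R B) :
    s * g * s⁻¹ ∈ Nb G R C := mem_Nb.2 fun x hx => by
  rw [mul_smul, mul_smul, mem_Nb.1 hg, smul_inv_smul]
  rwa [← h.inv s, smul_inv_smul, e]

theorem Des.fittingOf_ne_bot (h : Des G R k l) [FaithfulSMul G Ω] [FaithfulSMul G Y]
    (h2' : ∀ x y x' y' : Y, x ≠ y → x' ≠ y' → ∃ g : G, g • x = x' ∧ g • y = y')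
    (hfix : ∀ g : G, #{D : Y | g • D = D} = #{x : Ω | g • x = x}) (B : Y)
    (hH : ∀ y : Ω, ∃ s : G, s • B = B ∧ s • y ≠ y) (hN : Nb G R B ≠ ⊥) :
    fittingOf (Nb G R B) ≠ ⊥ := by
  have hNB : ∀ C, ∀ g ∈ Nb G R C, g • C = C := fun C g hg => h.smul_eq_of_fix (mem_Nb.1 hg)
  have hoff : ∀ g ∈ Nb G R B, g ≠ 1 → ∀ y y', ¬ R y B → ¬ R y' B → g • y = y → g • y' = y' →
      y = y' := fun g hg h1 y y' hy hy' e e' => by
    obtain ⟨x, hx⟩ := exists_smul_ne (X := Ω) h1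
    exact h.eq_of_fix_off h2' (mem_Nb.1 hg) hx hy hy' e e'
  have hoffs : ∀ s : G, s • B = B → ∀ y, ¬ R y B → ¬ R (s • y) B := fun s hs y hy hh =>
    hy ((h.inv s _ _).1 (hs.symm ▸ hh))
  obtain ⟨⟨g₀, hg₀⟩, hg1⟩ := ne_bot_iff_exists_ne_one.1 hN
  replace hg1 : g₀ ≠ 1 := fun e => hg1 (Subtype.ext e)
  by_cases hsr : ∃ g ∈ Nb G R B, g ≠ 1 ∧ ∃ y, ¬ R y B ∧ g • y = y
  · obtain ⟨g, hg, h1, y, hy, hgy⟩ := hsr
    have hF : IsFrobeniusComplement (stabilizer (Nb G R B) y) := by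
      refine ⟨ne_bot_iff_exists_ne_one.2 ⟨⟨⟨g, hg⟩, hgy⟩, fun e => h1 ?_⟩, fun e => ?_,
        fun s hs => eq_bot_iff.2 fun x hx => ?_⟩
      · exact congrArg (fun x => ((x : stabilizer (Nb G R B) y) : G)) e
      · obtain ⟨s, hs, hsy⟩ := hH y
        refine hsy (hoff g hg h1 _ _ (hoffs s hs y hy) hy ?_ hgy)
        have h3 : (⟨_, h.conj_Nb (inv_smul_eq_iff.2 hs.symm) hg⟩ : Nb G R B) ∈
          stabilizer (Nb G R B) y := e ▸ mem_top _
        have h4 : (s⁻¹ * g * s⁻¹⁻¹) • y = y := h3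
        rwa [inv_inv, mul_smul, mul_smul, inv_smul_eq_iff] at h4
      · by_contra hx1
        refine hs (hoff x x.2 (fun e => hx1 (Subtype.ext e)) _ _
          (hoffs s (hNB B s s.2) y hy) hy ?_ hx.1)
        obtain ⟨z, hz, rfl⟩ := hx.2
        have h4 : (z : G) • y = y := hz
        change ((s : G) * z * (s : G)⁻¹) • (s : G) • y = (s : G) • y
        rw [conj_smul_smul, h4]
    have := hF.kernel_normal
    have := hF.kernel_isNilpotent
    have hnil : Group.IsNilpotent (hF.kernel.map (Nb G R B).subtype) :=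
      Group.nilpotent_of_mulEquiv (equivMapOfInjective _ _ (subtype_injective _))
    have hle := GT.le_fittingOf (map_subtype_le hF.kernel) (GT.le_normalizer_map_subtype _ _)
    exact fun e => hF.kernel_ne_bot ((map_eq_bot_iff_of_injective _ (subtype_injective _)).1
      (eq_bot_iff.2 (e ▸ hle)))
  have hex : ∀ C, ∀ g ∈ Nb G R C, g ≠ 1 → ∀ x, g • x = x ↔ R x C := fun C g hg h1 x => by
    refine ⟨fun e => ?_, mem_Nb.1 hg x⟩
    obtain ⟨s, hs⟩ : ∃ s : G, s • C = B := by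
      by_cases hCB : C = B
      · exact ⟨1, by simp [hCB]⟩
      · obtain ⟨s, hs, -⟩ := h2' C B B C hCB (Ne.symm hCB)
        exact ⟨s, hs⟩
    by_contra hx
    exact hsr ⟨_, h.conj_Nb hs hg, by simpa using h1, s • x, by rwa [← hs, h.inv],
      by rw [conj_smul_smul, e]⟩
  have hk : ∀ C, ∀ g ∈ Nb G R C, g ≠ 1 → #{D : Y | g • D = D} = k := fun C g hg h1 => by
    rw [hfix, filter_congr fun x _ => hex C g hg h1 x, h.blk]
  have dep : ∀ C, ∀ g ∈ Nb G R C, ∀ D D', D ≠ C → D' ≠ C → (∀ x, R x C → (R x D ↔ R x D')) →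
      g • D = D → g • D' = D' := fun C g hg D D' hD hD' hi e => by
    by_cases h1 : g = 1
    · simp [h1]
    · exact h.smul_eq_of_inter (hex C g hg h1) (hk C g hg h1) hD hD' hi e
  have ti : ∀ C D, C ≠ D → ∀ g ∈ Nb G R C, g ∈ Nb G R D → g = 1 := fun C D hCD g h1 h2 => by
    by_contra hg
    have := h.blk2 C D hCD
    rw [filter_congr (q := fun x => R x C) fun x _ => ⟨fun hx => hx.1, fun hx =>
      ⟨hx, (hex D g h2 hg x).1 ((hex C g h1 hg x).2 hx)⟩⟩, h.blk] at this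
    exact h.lt.ne' this
  obtain ⟨C, hC, hCB⟩ := exists_mem_ne (s := ({D : Y | g₀ • D = D} : Finset Y))
    (by rw [hk B g₀ hg₀ hg1]; have := h.lt; have := h.pos; omega) B
  obtain ⟨D, hD⟩ := exists_smul_ne (X := Y) hg1
  have hDB : D ≠ B := by rintro rfl; exact hD (hNB _ g₀ hg₀)
  obtain ⟨s, hs, hsD⟩ := h2' B D B C hDB.symm hCB.symm
  have ht := h.conj_Nb hs hg₀
  have htC : (s * g₀ * s⁻¹) • C ≠ C := by
    rw [← hsD, conj_smul_smul]
    exact fun e => hD (MulAction.injective s e)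
  generalize s * g₀ * s⁻¹ = t at ht htC
  have hint : ∀ u ∈ Nb G R B, ∀ x, R x B → (R x C ↔ R x (u • C)) := fun u hu x hx => by
    rw [← h.inv u x C, mem_Nb.1 hu x hx]
  have hneB : ∀ u ∈ Nb G R B, u • C ≠ B := fun u hu e =>
    hCB (MulAction.injective u (e.trans (hNB B u hu).symm))
  set M := Nb G R B ⊓ stabilizer G C
  set M' := Nb G R C ⊓ stabilizer G B
  have hMn : ∀ u ∈ Nb G R B, ∀ m ∈ M, u⁻¹ * m * u ∈ M := fun u hu m hm =>
    mem_inf.2 ⟨mul_mem (mul_mem (inv_mem hu) hm.1) hu, by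
      change _ • _ = _
      rw [mul_smul, mul_smul, dep B m hm.1 C _ hCB (hneB u hu) (hint u hu) hm.2, inv_smul_smul]⟩
  have hMM : ∀ m ∈ M, ∀ m' ∈ M', m * m' = m' * m := fun m hm m' hm' => by
    have h1 : m * (m' * m⁻¹ * m'⁻¹) ∈ Nb G R B := mul_mem hm.1 (h.conj_Nb hm'.2 (inv_mem hm.1))
    have h2 : m * m' * m⁻¹ * m'⁻¹ ∈ Nb G R C := mul_mem (h.conj_Nb hm.2 hm'.1) (inv_mem hm'.1)
    have h3 := ti B C hCB.symm _ (by simpa only [mul_assoc] using h1) h2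
    rwa [mul_inv_eq_one, mul_inv_eq_iff_eq_mul] at h3
  have hc : ∀ m' ∈ M', t * m' * t⁻¹ * m'⁻¹ ∈ M := fun m' hm' => by
    refine mem_inf.2 ⟨by simpa only [mul_assoc] using mul_mem ht (h.conj_Nb hm'.2 (inv_mem ht)), ?_⟩
    have h1 : t⁻¹ • C ≠ C := fun e => htC (inv_smul_eq_iff.1 e).symm
    have h2 : ({x | R x B ∧ R x C} : Finset Ω) = ({x | R x (t⁻¹ • C) ∧ R x C} : Finset Ω) :=
      eq_of_subset_of_card_le (fun x hx => by
        simp only [mem_filter, mem_univ, true_and] at hx ⊢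
        exact ⟨(hint _ (inv_mem ht) x hx.1).1 hx.2, hx.2⟩)
        ((h.blk2 _ _ h1).trans (h.blk2 _ _ hCB.symm).symm).le
    have h3 := dep C m' hm'.1 B _ hCB.symm h1
      (fun x hx => by simpa [hx] using Finset.ext_iff.1 h2 x) hm'.2
    change _ • _ = _
    rw [mul_smul, hNB C _ (inv_mem hm'.1), mul_smul, mul_smul, h3, smul_inv_smul]
  have hcard : Nat.card M ≤ Nat.card M' := by
    obtain ⟨s, e1, e2⟩ := h2' B C C B hCB.symm hCB
    exact card_le_of_conj s fun m hm => ⟨h.conj_Nb e1 hm.1, by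
      change _ • _ = _
      rw [← e2, conj_smul_smul, show m • C = C from hm.2]⟩
  have hinj : Function.Injective fun m' : M' => (⟨_, hc m' m'.2⟩ : M) := fun a b e => by
    have e1 : t * a * t⁻¹ * (a : G)⁻¹ = t * b * t⁻¹ * (b : G)⁻¹ := congrArg Subtype.val e
    have e2 : t * ((b : G)⁻¹ * a) * t⁻¹ = (b : G)⁻¹ * a := by
      calc _ = (t * b * t⁻¹)⁻¹ * (t * a * t⁻¹ * (a : G)⁻¹) * a := by group
        _ = _ := by rw [e1]; group
    have h1 := (mul_mem (inv_mem b.2) a.2).1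
    exact Subtype.ext (inv_mul_eq_one.1 (ti _ _ htC _ (e2 ▸ h.conj_Nb rfl h1) h1)).symm
  have hsurj := ((Nat.bijective_iff_injective_and_card _).2
    ⟨hinj, le_antisymm (Nat.card_le_card_of_injective _ hinj) hcard⟩).2
  have hab : IsMulCommutative M := ⟨⟨fun a b => Subtype.ext <| by
    obtain ⟨m', rfl⟩ := hsurj b
    have e1 := hMM _ (hMn t ht a a.2) m' m'.2
    have e2 := hMM _ a.2 _ (inv_mem m'.2)
    change (a : G) * (t * m' * t⁻¹ * (m' : G)⁻¹) = t * m' * t⁻¹ * (m' : G)⁻¹ * a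
    calc _ = t * (t⁻¹ * a * t * m') * t⁻¹ * (m' : G)⁻¹ := by group
      _ = t * m' * t⁻¹ * (a * (m' : G)⁻¹) := by rw [e1]; group
      _ = _ := by rw [e2]; group⟩⟩
  have : Group.IsNilpotent M := by
    open scoped IsMulCommutative in infer_instance
  have hle : M ≤ fittingOf (Nb G R B) := GT.le_fittingOf inf_le_left fun u hu =>
    mem_normalizer_fintype fun m hm => by simpa using hMn u⁻¹ (inv_mem hu) m hm
  exact fun e => hg1 (mem_bot.1 (e ▸ hle ⟨hg₀, (mem_filter.1 hC).2⟩))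

end Abs

/-- Ito's theorem. -/
theorem ito {G Ω : Type*} [Group G] [Finite G] [MulAction G Ω] [FaithfulSMul G Ω] [Finite Ω]
    (h2 : IsMultiplyPretransitive G Ω 2) (H : Subgroup G) (hidx : H.index = Nat.card Ω)
    (hnt : ¬ IsPretransitive H Ω) (hfix : ∀ a : Ω, ∃ h : H, h • a ≠ a)
    (hunf : ∃ a : Ω, ∃ h : H, h ≠ 1 ∧ ∀ b ∈ orbit H a, h • b = b) :
    ∃ (m : ℕ) (F : Type) (_ : Field F) (_ : Fintype F), 2 ≤ m ∧
      Nat.card Ω = (Fintype.card F ^ (m + 1) - 1) / (Fintype.card F - 1) ∧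
      ∃ N : Subgroup G, N.Normal ∧ Nonempty (N ≃* ProjectiveSpecialLinearGroup (Fin (m + 1)) F) ∧
        centralizer (N : Set G) = ⊥ := by
  classical
  obtain ⟨a, g₀, hg1, hg₀⟩ := hunf
  have := Fintype.ofFinite Ω
  have := Fintype.ofFinite (G ⧸ H)
  obtain ⟨s, hs⟩ := hfix a
  obtain ⟨u, hu⟩ : ∃ u, u ∉ orbit H a := by
    by_contra hh
    exact hnt ((isPretransitive_iff_orbit_eq_univ a).2 (Set.eq_univ_of_forall (by simpa using hh)))
  obtain ⟨s', hs'⟩ := hfix u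
  have hn : 2 ≤ Nat.card Ω := Finite.one_lt_card_iff_nontrivial.2 ⟨⟨_, _, hs⟩⟩
  obtain ⟨hf, h2Y⟩ := fix_eq_of_card_eq (Y := G ⧸ H) h2 hn hidx (by
    rw [norb, card_orbits_prod_eq ((1 : G) : G ⧸ H), stabilizer_quotient]
    exact fun e => hnt (isPretransitive_of_norb_le_one H e.le))
  have hstab : ∀ g : G, g • ((1 : G) : G ⧸ H) = ((1 : G) : G ⧸ H) ↔ g ∈ H := fun g => by
    rw [← mem_stabilizer_iff, stabilizer_quotient]
  let R : Ω → G ⧸ H → Prop := fun x D => ∃ g : G, g • ((1 : G) : G ⧸ H) = D ∧ g⁻¹ • x ∈ orbit H a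
  have horb : ∀ g ∈ H, ∀ x, g • x ∈ orbit H a ↔ x ∈ orbit H a := fun g hg x =>
    ⟨fun hx => inv_smul_smul g x ▸ mem_orbit_of_mem_orbit (⟨g, hg⟩ : H)⁻¹ hx,
      fun hx => mem_orbit_of_mem_orbit (⟨g, hg⟩ : H) hx⟩
  have hR : ∀ x, R x ((1 : G) : G ⧸ H) ↔ x ∈ orbit H a := fun x =>
    ⟨fun ⟨g, hg, hx⟩ => (horb _ (inv_mem ((hstab g).1 hg)) x).1 hx,
      fun hx => ⟨1, one_smul _ _, by simpa using hx⟩⟩
  have h2' := fun x y x' y' (h : x ≠ y) (h' : x' ≠ y') => exists_smul_eq_two h2Y h h'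
  obtain ⟨k, l, hD⟩ := exists_des (G := G) (R := R) (fun g x D => ⟨fun ⟨t, e, ht⟩ =>
      ⟨g⁻¹ * t, by rw [mul_smul, e, inv_smul_smul], by simpa [mul_smul] using ht⟩,
      fun ⟨t, e, ht⟩ => ⟨g * t, by rw [mul_smul, e], by simpa [mul_smul] using ht⟩⟩)
    (fun _ _ _ _ h h' => exists_smul_eq_two h2 h h') h2'
    (by rw [← Nat.card_eq_fintype_card, ← Nat.card_eq_fintype_card, ← hidx]; rfl) hs hs'
    ((hR _).2 (mem_orbit a s)) ((hR _).2 (mem_orbit_self a))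
    (fun hh => hu ((horb s' s'.2 u).1 ((hR _).1 hh))) (fun hh => hu ((hR _).1 hh))
  have : FaithfulSMul G (G ⧸ H) := faithfulSMul_iff.2 fun g hg => eq_one_of_fix_eq (Ω := Ω) (by
    rw [← hf, ← hidx, fix_eq_card_filter, filter_true_of_mem fun x _ => hg x, card_univ,
      ← Nat.card_eq_fintype_card]
    rfl)
  have hf' : ∀ g : G, #{D : G ⧸ H | g • D = D} = #{x : Ω | g • x = x} := fun g => by
    rw [← fix_eq_card_filter, hf, fix_eq_card_filter]
  have hF := hD.fittingOf_ne_bot h2' hf' ((1 : G) : G ⧸ H)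
    (fun y => by
      obtain ⟨t, ht⟩ := hfix y
      exact ⟨t, (hstab t).2 t.2, ht⟩)
    (ne_bot_iff_exists_ne_one.2 ⟨⟨g₀, mem_Nb.2 fun x hx => hg₀ x ((hR x).1 hx)⟩,
      fun e => hg1 (Subtype.ext (by simpa using e))⟩)
  obtain ⟨p, -, A, hA, hAn, hA1, hAc, -⟩ := GT.HT.exists_comm_pGroup_le_of_solvable _ H
    (le_trans (fun g hg => mem_normalizer_fintype fun m hm => hD.conj_Nb ((hstab g).2 hg) hm)
      (GT.normalizer_le_normalizer_fittingOf _)) inferInstance hF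
  have hA' := hA.trans (GT.fittingOf_le _)
  obtain ⟨⟨n, hn⟩, hn1⟩ := ne_bot_iff_exists_ne_one.1 hA1
  obtain ⟨F, _, _, n, hn3, hc, hL⟩ := onan h2' ((1 : G) : G ⧸ H) A
    (fun n hn => hD.smul_eq_of_fix (mem_Nb.1 (hA' hn)))
    (fun g hg n hn => (mem_normalizer_iff.1 (hAn ((hstab g).1 hg)) n).1 hn)
    (fun a ha b hb => congrArg Subtype.val (hAc.is_comm.comm ⟨a, ha⟩ ⟨b, hb⟩)) (by
      obtain ⟨C, hC, hCB⟩ := exists_mem_ne (s := ({D : G ⧸ H | n • D = D} : Finset (G ⧸ H))) (by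
        rw [hf']
        exact one_lt_card.2 ⟨_, by simpa using mem_Nb.1 (hA' hn) _ ((hR _).2 (mem_orbit a s)), a,
          by simpa using mem_Nb.1 (hA' hn) _ ((hR _).2 (mem_orbit_self a)), hs⟩) ((1 : G) : G ⧸ H)
      exact ⟨n, hn, fun e => hn1 (Subtype.ext e), C, hCB, (mem_filter.1 hC).2⟩)
  obtain ⟨m, rfl⟩ : ∃ m, n = m + 1 := ⟨n - 1, by omega⟩
  exact ⟨m, F, inferInstance, inferInstance, by omega, hidx ▸ hc, hL⟩

end Cfsg.Agent.Perm.PG
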