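import Mathlib
import Cfsg.Agent.Perm.PGOW
import Cfsg.Agent.Perm.PGIto

/-!
# The Ostrom-Wagner theorem
-/

set_option autoImplicit false

namespace Cfsg.Agent.Perm.PG

open Subgroup MulAction Fx Cfsg.Agent.Perm.Der

variable {G : Type*} [Group G]

/-- Fixed points of a subgroup. -/
abbrev FixS (S : Subgroup G) (X : Type*) [MulAction G X] : Type _ := {x : X // ∀ s ∈ S, s • x = x}

/-- The permutation induced on the fixed points by an element of the normaliser. -/
def indPerm {S : Subgroup G} (X : Type*) [MulAction G X] {t : G}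
    (ht : t ∈ normalizer (S : Set G)) : Equiv.Perm (FixS S X) :=
  Equiv.Perm.subtypePerm (toPerm t) fun x =>
    ⟨fun hx s hs => MulAction.injective t (by
      have := hx _ ((mem_normalizer_iff.1 ht s).1 hs)
      simpa [mul_smul] using this),
    fun hx s hs => by
      have := hx _ ((mem_normalizer_iff''.1 ht s).1 hs)
      rw [mul_smul, mul_smul, inv_smul_eq_iff] at this
      exact this⟩

/-- Fixed points of an overgroup. -/
def fixEquiv {S K : Subgroup G} {X : Type*} [MulAction G X] {t : G} (hle : S ≤ K) (htK : t ∈ K)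
    (hK : ∀ k ∈ K, k ∈ S ∨ t⁻¹ * k ∈ S) (p : FixS S X → Prop) (hp : ∀ x, p x ↔ t • x.1 = x.1) :
    FixS K X ≃ {x : FixS S X // p x} where
  toFun x := ⟨⟨x.1, fun s hs => x.2 s (hle hs)⟩, (hp _).2 (x.2 t htK)⟩
  invFun x := ⟨x.1.1, fun k hk => (hK k hk).elim (x.1.2 k) fun e => by
    have := x.1.2 _ e
    rwa [mul_smul, inv_smul_eq_iff, (hp _).1 x.2] at this⟩
  left_inv _ := rfl
  right_inv _ := rfl

variable {P L : Type*} {I : P → L → Prop} {n : ℕ} [MulAction G P] [MulAction G L]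

/-- A 2-subgroup fixing a subplane. -/
def Good (I : P → L → Prop) (n : ℕ) (S : Subgroup G) : Prop :=
  ∃ j m e, Nat.card S = 2 ^ j ∧ Odd m ∧ n = m ^ e ∧
    Plane (fun (x : FixS S P) (l : FixS S L) => I x l) m

namespace Act

variable (h : Act G I n) [Finite G] [Finite P] [Finite L]
include h

omit [Finite G] in
theorem good_step {S K : Subgroup G} {j m e : ℕ} (hS : Nat.card S = 2 ^ j) (hm : Odd m)
    (he : n = m ^ e) (hp : Plane (fun (x : FixS S P) (l : FixS S L) => I x l) m) (hle : S ≤ K)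
    (hK : Nat.card K = 2 ^ (j + 1)) (hn : ¬ Good I n K) :
    ∃ t ∈ K, (∀ k ∈ K, k ∈ S ∨ t⁻¹ * k ∈ S) ∧
      ∃ (s : Col (fun (x : FixS S P) (l : FixS S L) => I x l)) (c : FixS S P) (a : FixS S L),
        Hm (fun (x : FixS S P) (l : FixS S L) => I x l) s c a ∧
        (∀ x : FixS S P, (s • x).1 = t • x.1) ∧ ∀ x : FixS S L, (s • x).1 = t • x.1 := by
  have hi : (S.subgroupOf K).index = 2 := by
    have := (S.subgroupOf K).card_mul_index
    rw [Nat.card_congr (subgroupOfEquivOfLe hle).toEquiv, hS, hK, pow_succ] at this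
    exact Nat.eq_of_mul_eq_mul_left (by positivity) this
  obtain ⟨⟨t, htK⟩, ht⟩ : ∃ t, t ∉ S.subgroupOf K := by
    by_contra hh
    rw [(eq_top_iff' (S.subgroupOf K)).2 (not_exists_not.1 hh), index_top] at hi
    omega
  have h1 : ∀ k ∈ K, k ∈ S ∨ t⁻¹ * k ∈ S := fun k hk => by
    have := mul_mem_iff_of_index_two hi (a := ⟨t, htK⟩⁻¹) (b := ⟨k, hk⟩)
    rw [inv_mem_iff] at this
    by_cases e : k ∈ S
    · exact Or.inl e
    · exact Or.inr (this.2 (iff_of_false ht e))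
  have hN : t ∈ normalizer (S : Set G) :=
    (normal_subgroupOf_iff_le_normalizer hle).1 (normal_of_index_eq_two hi) htK
  have htt : t * t ∈ S := mul_self_mem_of_index_two hi ⟨t, htK⟩
  let s : Col (fun (x : FixS S P) (l : FixS S L) => I x l) :=
    ⟨(indPerm P hN, indPerm L hN), fun x l => h.inv t x l⟩
  have e1 : ∀ x : FixS S P, (s • x).1 = t • x.1 := fun _ => rfl
  have e2 : ∀ x : FixS S L, (s • x).1 = t • x.1 := fun _ => rfl
  have hs : s * s = 1 := hp.act.faithP _ fun x => Subtype.ext (by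
    rw [mul_smul, e1, e1, ← mul_smul, x.2 _ htt])
  refine ⟨t, htK, h1, ?_⟩
  rcases hp.act.baer hs with ⟨c, a, hc⟩ | ⟨m', e3, hp'⟩
  · have hs1 : s ≠ 1 := fun e => hn ⟨j + 1, m, _, hK, hm, he, hp.congr
      ((fixEquiv hle htK h1 (fun _ => True) fun x => by simp [← e1, e]).trans
        (Equiv.subtypeUnivEquiv fun _ => trivial))
      ((fixEquiv hle htK h1 (fun _ => True) fun x => by simp [← e2, e]).trans
        (Equiv.subtypeUnivEquiv fun _ => trivial)) fun _ _ => Iff.rfl⟩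
    refine ⟨s, c, a, ⟨fun hh => ?_, hc, hs1, hs⟩, e1, e2⟩
    have := hp.act.orderOf_dvd hh hc
    rw [orderOf_eq_prime (p := 2) (by rw [pow_two, hs]) hs1] at this
    exact (Nat.not_even_iff_odd.2 hm) (even_iff_two_dvd.2 this)
  · exact absurd ⟨j + 1, m', 2 * e, hK, (Nat.odd_mul.1 (e3 ▸ hm)).1, by
      rw [he, e3, pow_mul, pow_two], hp'.congr
      (fixEquiv hle htK h1 _ fun x => by rw [Subtype.ext_iff, e1])
      (fixEquiv hle htK h1 _ fun x => by rw [Subtype.ext_iff, e2]) fun _ _ => Iff.rfl⟩ hn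

variable (h2 : ∀ x y x' y' : P, x ≠ y → x' ≠ y' → ∃ g : G, g • x = x' ∧ g • y = y')
include h2

theorem prime_pow_of_odd (hn : Odd n) : ∃ p k, p.Prime ∧ n = p ^ k := by
  obtain ⟨S, ⟨j, m, e, hS, hm, he, hp⟩, hmax⟩ := Set.Finite.exists_maximalFor
    (fun S : Subgroup G => Nat.card S) {S | Good I n S} (Set.toFinite _)
    ⟨⊥, 0, n, 1, by simp, hn, by simp, h.toPlane.congr
      (Equiv.subtypeUnivEquiv (by simp)) (Equiv.subtypeUnivEquiv (by simp)) fun _ _ => Iff.rfl⟩
  have key : ∀ H : Subgroup G, S ≤ H → 2 ^ (j + 1) ∣ Nat.card H →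
      ∃ K, S ≤ K ∧ K ≤ H ∧ Nat.card K = 2 ^ (j + 1) ∧ ¬ Good I n K := fun H hH hd => by
    obtain ⟨K, hK, hle⟩ := Sylow.exists_subgroup_card_pow_succ hd (H := S.subgroupOf H)
      (by rw [Nat.card_congr (subgroupOfEquivOfLe hH).toEquiv, hS])
    have hc : Nat.card (K.map H.subtype) = 2 ^ (j + 1) := by
      rw [card_map_of_injective H.subtype_injective, hK]
    refine ⟨K.map H.subtype, fun s hs => ⟨⟨s, hH hs⟩, hle hs, rfl⟩, map_subtype_le K, hc,
      fun hg => ?_⟩
    have h1 : Nat.card S < Nat.card (K.map H.subtype) := by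
      rw [hc, hS]; exact Nat.pow_lt_pow_right one_lt_two j.lt_succ_self
    exact (hmax hg h1.le).not_gt h1
  obtain ⟨g⟩ := hp.neL
  obtain ⟨u, hu, -⟩ := hp.third g hp.neP.some hp.neP.some
  obtain ⟨v, hv, hvu, -⟩ := hp.third g u u
  have hvu' : v.1 ≠ u.1 := Subtype.val_injective.ne hvu
  have d1 : 2 ^ (j + 1) ∣ Nat.card (⊤ : Subgroup G) := by
    have e1 := card_orbit_mul (stabilizer G u.1) v.1
    have e2 : orbit (stabilizer G u.1) v.1 = {u.1}ᶜ := by
      ext w
      refine ⟨fun hw => ?_, fun hw => ?_⟩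
      · obtain ⟨s, hs, rfl⟩ := mem_orbit_sub.1 hw
        exact fun e => hvu' (MulAction.injective s (e.trans (mem_stabilizer_iff.1 hs).symm))
      · obtain ⟨s, e, e'⟩ := h2 u.1 v.1 u.1 w hvu'.symm (Ne.symm hw)
        exact mem_orbit_sub.2 ⟨s, e, e'⟩
    rw [e2, Nat.card_coe_set_eq, Set.ncard_compl, Set.ncard_singleton, h.card_P,
      Nat.add_sub_cancel] at e1
    refine Dvd.dvd.trans ?_ (card_dvd_of_le (le_top (a := stabilizer G u.1)))
    rw [← e1, pow_succ', ← hS]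
    exact mul_dvd_mul (dvd_mul_of_dvd_left hn.add_one.two_dvd _)
      (card_dvd_of_le fun s hs => ⟨u.2 s hs, v.2 s hs⟩)
  obtain ⟨K, hle, -, hK, hKn⟩ := key ⊤ le_top d1
  obtain ⟨t, -, h1, s, c, a, hs, e1, -⟩ := h.good_step hS hm he hp hle hK hKn
  obtain ⟨u', hu', -⟩ := hp.third a u u
  obtain ⟨v', hv', hvu'', -⟩ := hp.third a u' u'
  have d2 : 2 ^ (j + 1) ∣ Nat.card (stabilizer G (v'.1, u'.1)) := by
    have h3 : ∀ k ∈ K, ∀ w : FixS S P, I w a → k • w.1 = w.1 := fun k hk w hw =>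
      (h1 k hk).elim (w.2 k) fun e => by
        have := w.2 _ e
        rwa [mul_smul, inv_smul_eq_iff, ← e1, hs.2.1.1 w hw] at this
    rw [← hK]
    exact card_dvd_of_le fun k hk => Prod.ext (h3 k hk v' hv') (h3 k hk u' hu')
  obtain ⟨p, k, hp', hk⟩ := hp.act.prime_pow hm fun x g y l hx hy hl hyx hlg => by
    have hyx' : y.1 ≠ x.1 := Subtype.val_injective.ne hyx
    have hyl : ¬ I y l := fun hh => hlg (hp.eq_line hyx hh hl hy hx)
    have e3 := card_orbit_mul (stabilizer G (x.1, y.1)) l.1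
    rw [h.card_orbit_two h2 hl hyl,
      card_stab_two h2 hyx'.symm (Subtype.val_injective.ne hvu'')] at e3
    obtain ⟨K, hle, hKH, hK, hKn⟩ := key (stabilizer G (x.1, y.1) ⊓ stabilizer G l.1)
      (fun s hs => ⟨Prod.ext (x.2 s hs) (y.2 s hs), l.2 s hs⟩)
      ((Nat.Coprime.pow_left _ (Nat.coprime_two_left.2 hn)).dvd_of_dvd_mul_left (e3 ▸ d2))
    obtain ⟨t, ht, -, s, c, a, hs, e1, e2⟩ := h.good_step hS hm he hp hle hK hKn
    obtain ⟨f1, f2⟩ := Prod.ext_iff.1 (mem_stabilizer_iff.1 (hKH ht).1)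
    have f3 : s • x = x := Subtype.ext ((e1 x).trans f1)
    have f4 : s • y = y := Subtype.ext ((e1 y).trans f2)
    exact ⟨s, c, a, hs, f3, hp.act.fix_line hyx hy hx f4 f3, f4,
      Subtype.ext ((e2 l).trans (hKH ht).2)⟩
  exact ⟨p, k * e, hp', by rw [he, hk, pow_mul]⟩

theorem exists_per_two : ∃ (z : G) (c : P) (a : L), z ≠ 1 ∧ Per I z c a := by
  rcases Nat.even_or_odd n with hn | hn
  · exact h.exists_per_of_even h2 hn
  · obtain ⟨p, k, hp, hk⟩ := h.prime_pow_of_odd h2 hn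
    exact h.exists_per_of_pow h2 hp hk

theorem exists_geom : ∃ A : P → Subgroup G, ElGeom A ∧
    ∀ x, ∀ a ∈ A x, ∀ l, I x l → a • l = l := by
  classical
  obtain ⟨z, c, a, hz1, hz⟩ := h.exists_per_two h2
  have := Fintype.ofFinite P
  have := Fintype.ofFinite L
  have : FaithfulSMul G P := faithfulSMul_iff.2 h.faithP
  have : FaithfulSMul G L := faithfulSMul_iff.2 h.faithL
  obtain ⟨hf, h2L⟩ := h.fix_eq h2
  obtain ⟨k, hk, -⟩ := h.third' c a a
  obtain ⟨k', hk', hkk, -⟩ := h.third' c k k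
  obtain ⟨u, hu⟩ := h.toPlane.dual.exists_off c
  obtain ⟨y, hy, -⟩ := h.third u c c
  have hyc : y ≠ c := by rintro rfl; exact hu hy
  obtain ⟨w, hw, hw'⟩ := h.line y c hyc
  obtain ⟨v, hv, hvu, hvw⟩ := h.third' y u w
  obtain ⟨r, l, hD⟩ := exists_des (G := G) (R := fun l x => I x l) (fun g l x => h.inv g x l)
    (fun _ _ _ _ h h' => exists_smul_eq_two h2L h h') h2
    (by rw [← Nat.card_eq_fintype_card, ← Nat.card_eq_fintype_card, h.card_P, h.dual.card_P])
    hkk hvu hk' hk (fun hh => hvw (h.eq_line hyc hv hh hw hw')) hu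
  have hF := hD.fittingOf_ne_bot h2
    (fun g => by
      have := hf g
      rw [fix_eq_card_filter, fix_eq_card_filter] at this
      convert this.symm) c
    (fun l => by
      by_cases hl : I c l
      · obtain ⟨l', h3, h4, -⟩ := h.third' c l l
        obtain ⟨s, e1, e2⟩ := h.flag h2 hl h3
        exact ⟨s, e1, e2 ▸ h4⟩
      · obtain ⟨x, hx, -⟩ := h.third l c c
        obtain ⟨k, h3, h4⟩ := h.exists_line x c
        obtain ⟨l', h5, h6, h7⟩ := h.third' x l k
        obtain ⟨s, e1, e2⟩ := h.antiflag h2 hl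
          (fun hh => h7 (h.eq_line (by rintro rfl; exact hl hx) h5 hh h3 h4))
        exact ⟨s, e1, e2 ▸ h6⟩)
    (ne_bot_iff_exists_ne_one.2 ⟨⟨z, mem_Nb.2 hz.2⟩, fun e => hz1 (by simpa using e)⟩)
  obtain ⟨p, -, N, hA, hAn, hA1, hAc, -⟩ := GT.HT.exists_comm_pGroup_le_of_solvable _
    (stabilizer G c)
    (le_trans (fun g hg => mem_normalizer_fintype fun m hm => hD.conj_Nb hg hm)
      (GT.normalizer_le_normalizer_fittingOf _)) inferInstance hF
  have hA' := hA.trans (GT.fittingOf_le _)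
  obtain ⟨⟨t, ht⟩, ht1⟩ := ne_bot_iff_exists_ne_one.1 hA1
  obtain ⟨A, hA, hAN⟩ := exists_elGeom h2 c N
    (fun n hn => hD.smul_eq_of_fix (mem_Nb.1 (hA' hn)))
    (fun g hg n hn => (mem_normalizer_iff.1 (hAn hg) n).1 hn)
    (fun a ha b hb => congrArg Subtype.val (hAc.is_comm.comm ⟨a, ha⟩ ⟨b, hb⟩)) (by
      obtain ⟨b, hb⟩ := h.dual.exists_per (mem_Nb.1 (hA' ht))
      obtain ⟨y, hy, hyc, -⟩ := h.third b c c
      exact ⟨t, ht, fun e => ht1 (Subtype.ext e), y, hyc, hb.2 y hy⟩)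
  refine ⟨A, hA, fun x a ha l hl => ?_⟩
  obtain ⟨g, rfl, -⟩ := h.flag h2 hk hl
  have := mem_Nb.1 (hA' (hAN g a ha)) (g⁻¹ • l) (h.smul_inc (inv_smul_smul g c) rfl hl)
  rwa [mul_smul, mul_smul, smul_inv_smul, smul_left_cancel_iff] at this

omit h2 [Finite G] [Finite P] [Finite L] in
theorem mem_ln_iff {A : P → Subgroup G} (hA : ElGeom A)
    (hc : ∀ x, ∀ a ∈ A x, ∀ l, I x l → a • l = l) {x y z : P} {l : L} (hxy : x ≠ y) (hx : I x l)
    (hy : I y l) : z ∈ ln A x y ↔ I z l := by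
  have key : ∀ z, z ∈ ln A x y → I z l := fun z hz => by
    obtain ⟨a, ha, ha1, hay⟩ := hA.nsr x y hxy
    obtain ⟨u, hu⟩ := not_forall.1 fun hh => ha1 (hA.faith a hh)
    have h1 : u ∉ ln A x y := fun hh => hu (hh a ha hay)
    by_cases hzx : z = x
    · exact hzx ▸ hx
    obtain ⟨b, hb, -, e⟩ := hA.trans x u y z (by rintro rfl; exact hu (hA.fix _ a ha))
      (hA.not_mem_swap hxy h1) hz hzx
    exact h.smul_inc e (hc x b hb l hx) hy
  refine ⟨key z, fun hz a ha hay => ?_⟩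
  by_cases ha1 : a = 1
  · rw [ha1, one_smul]
  obtain ⟨b, hb⟩ := h.dual.exists_per (hc x a ha)
  have h1 : ∀ w, w ≠ x → a • w = w → I w b := fun w hw e => by
    by_contra hh
    exact ha1 (h.per_eq_one hb.dual hw hh e)
  obtain ⟨w, hw, hwx, hwy⟩ := hA.third x y hxy
  exact hb.2 z (h.eq_line hwy (key w hw) hy (h1 w hwx (hw a ha hay)) (h1 y hxy.symm hay) ▸ hz)

omit h h2 [Finite G] [Finite P] [Finite L] in
theorem finrank_sup_two {F W : Type*} [Field F] [AddCommGroup W] [Module F W]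
    [FiniteDimensional F W] {x y : Projectivization F W} (hxy : x ≠ y) :
    Module.finrank F ↥(x.submodule ⊔ y.submodule) = 2 := by
  have h1 := Submodule.finrank_sup_add_finrank_inf_eq x.submodule y.submodule
  have h3 : Module.finrank F ↥(x.submodule ⊓ y.submodule) < Module.finrank F x.submodule :=
    Submodule.finrank_lt_finrank_of_lt (lt_of_le_of_ne inf_le_left fun e =>
      hxy (Projectivization.submodule_injective (Submodule.eq_of_le_of_finrank_eq
        (inf_eq_left.1 e) (by rw [x.finrank_submodule, y.finrank_submodule]))))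
  rw [x.finrank_submodule] at h1 h3
  rw [y.finrank_submodule] at h1
  omega

/-- The Ostrom-Wagner theorem. -/
theorem ostrom_wagner :
    ∃ (F : Type) (_ : Field F) (_ : Fintype F) (φ : P ≃ Projectivization F (Fin 3 → F)),
      (∀ l : L, ∃ W : Submodule F (Fin 3 → F), Module.finrank F W = 2 ∧
          ∀ p : P, I p l ↔ (φ p).submodule ≤ W) ∧
      (∀ W : Submodule F (Fin 3 → F), Module.finrank F W = 2 →
          ∃ l : L, ∀ p : P, I p l ↔ (φ p).submodule ≤ W) := by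
  obtain ⟨A, hA, hc⟩ := h.exists_geom h2
  have two : ∀ l, ∃ x y, x ≠ y ∧ I x l ∧ I y l := fun l => by
    obtain ⟨u, hu, -⟩ := h.third l h.neP.some h.neP.some
    obtain ⟨v, hv, hvu, -⟩ := h.third l u u
    exact ⟨v, u, hvu, hv, hu⟩
  obtain ⟨u, v, huv, -⟩ := two h.neL.some
  have : Nontrivial P := ⟨⟨u, v, huv⟩⟩
  obtain ⟨F, _, _, d, ψ, hd, hψ, -⟩ := hA.core
  have hl : ∀ {x y l}, x ≠ y → I x l → I y l → ∀ z,
      I z l ↔ (ψ z).submodule ≤ (ψ x).submodule ⊔ (ψ y).submodule := fun hxy hx hy z => by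
    rw [← hψ _ _ _ hxy, h.mem_ln_iff hA hc hxy hx hy]
  obtain rfl : d = 3 := by
    by_contra hne
    obtain ⟨d, rfl⟩ : ∃ e, d = e + 4 := ⟨d - 4, by omega⟩
    have h0 : ∀ i : Fin (d + 4), (Pi.single i 1 : Fin (d + 4) → F) ≠ 0 := fun i => by simp
    have h1 : ∀ i j : Fin (d + 4), i ≠ j → ∃ l, ∀ z, I z l → ∀ k, k ≠ i → k ≠ j →
        (ψ z).rep k = 0 := fun i j hij => by
      have h3 : ψ.symm (.mk F _ (h0 i)) ≠ ψ.symm (.mk F _ (h0 j)) := fun e => by
        obtain ⟨a, ha⟩ := (Projectivization.mk_eq_mk_iff' F _ _ _ _).1 (ψ.symm.injective e)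
        simpa [hij] using congrFun ha i
      obtain ⟨l, hi, hj⟩ := h.line _ _ h3
      refine ⟨l, fun z hz k hki hkj => ?_⟩
      have h4 := (hl h3 hi hj z).1 hz
      rw [Projectivization.submodule_eq, Submodule.span_singleton_le_iff_mem] at h4
      simp only [Equiv.apply_symm_apply, Projectivization.submodule_mk] at h4
      obtain ⟨a, ha, b, hb, e⟩ := Submodule.mem_sup.1 h4
      obtain ⟨a, rfl⟩ := Submodule.mem_span_singleton.1 ha
      obtain ⟨b, rfl⟩ := Submodule.mem_span_singleton.1 hb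
      rw [← e]
      simp [hki, hkj]
    obtain ⟨l, h3⟩ := h1 ⟨0, by omega⟩ ⟨1, by omega⟩ (by simp)
    obtain ⟨l', h4⟩ := h1 ⟨2, by omega⟩ ⟨3, by omega⟩ (by simp)
    obtain ⟨z, hz, hz'⟩ := h.toPlane.dual.exists_line l l'
    refine (ψ z).rep_nonzero (funext fun k => ?_)
    by_cases e : k.1 ≤ 1
    · exact h4 z hz' k (fun e' => by simp [e'] at e) (fun e' => by simp [e'] at e)
    · exact h3 z hz k (fun e' => by simp [e'] at e) (fun e' => by simp [e'] at e)
  refine ⟨F, inferInstance, inferInstance, ψ, fun l => ?_, fun W hW => ?_⟩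
  · obtain ⟨x, y, hxy, hx, hy⟩ := two l
    exact ⟨_, finrank_sup_two (ψ.injective.ne hxy), hl hxy hx hy⟩
  · obtain ⟨a, ha, ha0⟩ := W.exists_mem_ne_zero_of_ne_bot (by rintro rfl; simp at hW)
    obtain ⟨b, hb, hba⟩ := SetLike.exists_of_lt (Submodule.lt_of_le_of_finrank_lt_finrank
      ((Submodule.span_singleton_le_iff_mem a W).2 ha) (by rw [finrank_span_singleton ha0]; omega))
    have hb0 : b ≠ 0 := by rintro rfl; exact hba (zero_mem _)
    have h3 : Projectivization.mk F a ha0 ≠ .mk F b hb0 := fun e => hba (by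
      rw [← Projectivization.submodule_mk a ha0, e]
      exact Submodule.mem_span_singleton_self b)
    obtain ⟨l, hx, hy⟩ := h.line _ _ (ψ.symm.injective.ne h3)
    refine ⟨l, fun p => ?_⟩
    rw [hl (ψ.symm.injective.ne h3) hx hy, Equiv.apply_symm_apply, Equiv.apply_symm_apply,
      Projectivization.submodule_mk, Projectivization.submodule_mk,
      Submodule.eq_of_le_of_finrank_eq (sup_le ((Submodule.span_singleton_le_iff_mem a W).2 ha)
        ((Submodule.span_singleton_le_iff_mem b W).2 hb)) ((finrank_sup_two h3).trans hW.symm)]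

end Act

end Cfsg.Agent.Perm.PG
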