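import Mathlib

/-!
A certificate for a subgroup of `GL(2, F)` being regular on the non-zero vectors.
-/

set_option autoImplicit false

namespace Cfsg.Agent.Perm

open Matrix

theorem regular_plane_of_tables {F : Type*} [Field F] [Fintype F] [DecidableEq F]
    (S : Set (GeneralLinearGroup (Fin 2) F)) (w₁ w₂ : F → F → F) (r : F → F → ℕ)
    (h1 : w₁ 1 0 = 0) (h2 : w₂ 1 0 = 1)
    (hw : ∀ g ∈ S, ∀ x y : F, ¬ (x = 0 ∧ y = 0) →
      g 0 0 * w₁ x y + g 0 1 * w₂ x y = w₁ (g 0 0 * x + g 0 1 * y) (g 1 0 * x + g 1 1 * y) ∧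
      g 1 0 * w₁ x y + g 1 1 * w₂ x y = w₂ (g 0 0 * x + g 0 1 * y) (g 1 0 * x + g 1 1 * y))
    (hr : ∀ x y : F, ¬ (x = 0 ∧ y = 0) → (x = 1 ∧ y = 0) ∨
      ∃ g ∈ S, r (g 0 0 * x + g 0 1 * y) (g 1 0 * x + g 1 1 * y) < r x y) :
    Nat.card (Subgroup.closure S) = Fintype.card F ^ 2 - 1 ∧
      ∀ v w : Fin 2 → F, v ≠ 0 → w ≠ 0 → ∃! h : Subgroup.closure S,
        Matrix.mulVec ((h : GeneralLinearGroup (Fin 2) F) : Matrix (Fin 2) (Fin 2) F) v = w := by
  let W : (Fin 2 → F) → (Fin 2 → F) := fun v => ![w₁ (v 0) (v 1), w₂ (v 0) (v 1)]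
  have hne : ∀ v : Fin 2 → F, v ≠ 0 → ¬ (v 0 = 0 ∧ v 1 = 0) := by
    rintro v hv ⟨a, b⟩
    apply hv
    funext i
    fin_cases i
    exacts [a, b]
  have hmv : ∀ (g : GeneralLinearGroup (Fin 2) F) (v : Fin 2 → F),
      (g : Matrix (Fin 2) (Fin 2) F) *ᵥ v
        = ![g 0 0 * v 0 + g 0 1 * v 1, g 1 0 * v 0 + g 1 1 * v 1] := by
    intro g v
    funext i
    fin_cases i <;> simp [mulVec, dotProduct, Fin.sum_univ_two]
  have hmul : ∀ (g h : GeneralLinearGroup (Fin 2) F) (v : Fin 2 → F),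
      ((g * h : GeneralLinearGroup (Fin 2) F) : Matrix (Fin 2) (Fin 2) F) *ᵥ v
        = (g : Matrix (Fin 2) (Fin 2) F) *ᵥ ((h : Matrix (Fin 2) (Fin 2) F) *ᵥ v) := by
    intro g h v
    rw [Units.val_mul, mulVec_mulVec]
  have hinv : ∀ (g : GeneralLinearGroup (Fin 2) F) (v : Fin 2 → F),
      ((g⁻¹ : GeneralLinearGroup (Fin 2) F) : Matrix (Fin 2) (Fin 2) F) *ᵥ
        ((g : Matrix (Fin 2) (Fin 2) F) *ᵥ v) = v := by
    intro g v
    rw [← hmul, inv_mul_cancel, Units.val_one, one_mulVec]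
  have hinv' : ∀ (g : GeneralLinearGroup (Fin 2) F) (v : Fin 2 → F),
      (g : Matrix (Fin 2) (Fin 2) F) *ᵥ
        (((g⁻¹ : GeneralLinearGroup (Fin 2) F) : Matrix (Fin 2) (Fin 2) F) *ᵥ v) = v := by
    intro g v
    rw [← hmul, mul_inv_cancel, Units.val_one, one_mulVec]
  have hnz : ∀ (g : GeneralLinearGroup (Fin 2) F) (v : Fin 2 → F), v ≠ 0 →
      (g : Matrix (Fin 2) (Fin 2) F) *ᵥ v ≠ 0 := by
    intro g v hv h
    apply hv
    rw [← hinv g v, h, mulVec_zero]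
  have hW : ∀ g ∈ S, ∀ v : Fin 2 → F, v ≠ 0 →
      (g : Matrix (Fin 2) (Fin 2) F) *ᵥ W v = W ((g : Matrix (Fin 2) (Fin 2) F) *ᵥ v) := by
    intro g hg v hv
    obtain ⟨a, b⟩ := hw g hg _ _ (hne v hv)
    rw [hmv, hmv]
    simp only [W, cons_val_zero, cons_val_one, cons_val_fin_one, a, b]
  have he : (![1, 0] : Fin 2 → F) ≠ 0 := fun h => one_ne_zero (congrFun h 0)
  have hcl : ∀ h ∈ Subgroup.closure S, (h : Matrix (Fin 2) (Fin 2) F) *ᵥ ![0, 1]
      = W ((h : Matrix (Fin 2) (Fin 2) F) *ᵥ ![1, 0]) := by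
    intro h hh
    induction hh using Subgroup.closure_induction_left with
    | one => simp [W, h1, h2]
    | mul_left g hg h _ ih => rw [hmul, hmul, ih, hW g hg _ (hnz _ _ he)]
    | inv_mul_cancel g hg h _ ih =>
      have := hW g hg _ (hnz g⁻¹ _ (hnz h _ he))
      rw [hinv'] at this
      rw [hmul, hmul, ih, ← this, hinv]
  have hstab : ∀ h ∈ Subgroup.closure S, (h : Matrix (Fin 2) (Fin 2) F) *ᵥ ![1, 0] = ![1, 0] →
      h = 1 := by
    intro h hh e1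
    have e2 := hcl h hh
    rw [e1, hmv] at e2
    rw [hmv] at e1
    have a1 := congrFun e1 0
    have a2 := congrFun e1 1
    have a3 := congrFun e2 0
    have a4 := congrFun e2 1
    simp [W, h1, h2] at a1 a2 a3 a4
    ext i j
    fin_cases i <;> fin_cases j <;> simp [a1, a2, a3, a4]
  have htr : ∀ n, ∀ v : Fin 2 → F, v ≠ 0 → r (v 0) (v 1) = n →
      ∃ h ∈ Subgroup.closure S, (h : Matrix (Fin 2) (Fin 2) F) *ᵥ v = ![1, 0] := by
    intro n
    induction n using Nat.strong_induction_on with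
    | _ n ih =>
      intro v hv hn
      rcases hr _ _ (hne v hv) with ⟨a, b⟩ | ⟨g, hg, hlt⟩
      · refine ⟨1, Subgroup.one_mem _, ?_⟩
        rw [Units.val_one, one_mulVec]
        funext i
        fin_cases i
        exacts [a, b]
      · obtain ⟨h, hh, e⟩ := ih _ (hn ▸ hlt) ((g : Matrix (Fin 2) (Fin 2) F) *ᵥ v) (hnz g v hv)
          (by rw [hmv]; rfl)
        exact ⟨h * g, Subgroup.mul_mem _ hh (Subgroup.subset_closure hg), by rw [hmul, e]⟩
  have hreg : ∀ v w : Fin 2 → F, v ≠ 0 → w ≠ 0 → ∃! h : Subgroup.closure S,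
      Matrix.mulVec ((h : GeneralLinearGroup (Fin 2) F) : Matrix (Fin 2) (Fin 2) F) v = w := by
    intro v w hv hw
    obtain ⟨a, ha, ea⟩ := htr _ v hv rfl
    obtain ⟨b, hb, eb⟩ := htr _ w hw rfl
    refine ⟨⟨b⁻¹ * a, Subgroup.mul_mem _ (Subgroup.inv_mem _ hb) ha⟩, ?_, ?_⟩
    · simp only
      rw [hmul, ea, ← eb, hinv]
    · rintro ⟨h, hh⟩ e
      simp only at e
      have := hstab (b * h * a⁻¹)
        (Subgroup.mul_mem _ (Subgroup.mul_mem _ hb hh) (Subgroup.inv_mem _ ha)) (by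
          rw [hmul, hmul, ← ea, hinv, e, eb, ea])
      apply Subtype.ext
      simp only
      calc h = b⁻¹ * (b * h * a⁻¹) * a := by group
        _ = b⁻¹ * a := by rw [this, mul_one]
  refine ⟨?_, hreg⟩
  let f : Subgroup.closure S → {w : Fin 2 → F // w ≠ 0} := fun h =>
    ⟨((h : GeneralLinearGroup (Fin 2) F) : Matrix (Fin 2) (Fin 2) F) *ᵥ ![1, 0], hnz _ _ he⟩
  have hf : Function.Bijective f := by
    rw [Function.bijective_iff_existsUnique]
    rintro ⟨w, hw⟩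
    simpa only [f, Subtype.mk.injEq] using hreg _ w he hw
  rw [Nat.card_eq_of_bijective f hf]
  simp

end Cfsg.Agent.Perm
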