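import Mathlib
import Cfsg.Agent.GT.CharSimple

/-! # Automorphisms and subdirect subgroups of a direct power of a nonabelian simple group
(Scott's lemma) -/

set_option autoImplicit false
open scoped commutatorElement

namespace Cfsg.Agent.Perm.Scott

variable {T : Type*} [Group T] [IsSimpleGroup T] {ι : Type*}

theorem exists_aut {L : Type*} [Group L] {f g : L →* T} (hf : Function.Surjective f)
    (hg : Function.Surjective g) (h : f.ker ≤ g.ker) : ∃ α : T ≃* T, ∀ l, g l = α (f l) := by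
  let β : T →* T := f.liftOfSurjective hf ⟨g, h⟩
  have hβ : ∀ l, β (f l) = g l := fun l => f.liftOfRightInverse_comp_apply _ _ ⟨g, h⟩ l
  have hs : Function.Surjective β := fun t => let ⟨l, hl⟩ := hg t; ⟨f l, (hβ l).trans hl⟩
  refine ⟨MulEquiv.ofBijective β ⟨(MonoidHom.ker_eq_bot_iff β).1
    ((β.normal_ker.eq_bot_or_eq_top).resolve_right fun e => ?_), hs⟩, fun l => (hβ l).symm⟩
  obtain ⟨t, ht⟩ := exists_ne (1 : T)
  obtain ⟨s, rfl⟩ := hs t
  exact ht (e.ge trivial)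

variable (hT : ¬ IsMulCommutative T)
include hT

theorem exists_coord [Finite ι] {f : (ι → T) →* T} (hf : Function.Surjective f) :
    ∃ (i : ι) (α : T ≃* T), ∀ x, f x = α (x i) := by
  classical
  obtain ⟨S, hS⟩ := GT.exists_mem_iff_of_normal_pi (fun _ : ι => hT) f.ker
  obtain ⟨t, ht⟩ := exists_ne (1 : T)
  obtain ⟨i, hi⟩ : ∃ i, i ∉ S := by
    by_contra hc
    push Not at hc
    obtain ⟨x, rfl⟩ := hf t
    exact ht ((hS x).2 fun i hi => absurd (hc i) hi)
  refine ⟨i, exists_aut (f := Pi.evalMonoidHom (fun _ => T) i) (Function.surjective_eval i) hf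
    fun x hx => (hS x).2 fun j hj => ?_⟩
  by_cases hij : j = i
  · exact hij ▸ hx
  have h1 : ((MonoidHom.mulSingle (fun _ : ι => T) i).range.map f) = ⊤ := by
    refine (Subgroup.Normal.map ⟨?_⟩ f hf).eq_bot_or_eq_top.resolve_left fun e => ht ?_
    · rintro _ ⟨s, rfl⟩ y
      exact ⟨y i * s * (y i)⁻¹, funext fun k => by by_cases k = i <;> simp [*]⟩
    · simpa using (hS _).1 (e.le ⟨_, ⟨t, rfl⟩, rfl⟩) i hi
  have h2 : f (Pi.mulSingle j (x j)) ∈ Subgroup.center T := Subgroup.mem_center_iff.2 fun s => by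
    obtain ⟨_, ⟨u, rfl⟩, rfl⟩ := h1.ge (Subgroup.mem_top s)
    exact ((Pi.mulSingle_commute (f := fun _ : ι => T) (Ne.symm hij) u (x j)).map f).eq
  rw [GT.center_eq_bot_of_isSimpleGroup hT] at h2
  simpa using (hS _).1 h2 j hj

/-- Scott's lemma, first form. -/
theorem exists_mem_of_subdirect {L : Subgroup (ι → T)} (hL : ∀ i t, ∃ l ∈ L, l i = t) (r : ι)
    (F : Finset ι) (hF : ∀ s ∈ F, ∃ l ∈ L, l s = 1 ∧ l r ≠ 1) (t : T) :
    ∃ l ∈ L, l r = t ∧ ∀ s ∈ F, l s = 1 := by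
  classical
  have key : ∀ F : Finset ι, (∃ l ∈ L, (∀ s ∈ F, l s = 1) ∧ l r ≠ 1) → ∀ t,
      ∃ l ∈ L, l r = t ∧ ∀ s ∈ F, l s = 1 := by
    rintro F ⟨l, hl, h1, h2⟩ t
    let P : Subgroup T := (L ⊓ ⨅ s ∈ F, (Pi.evalMonoidHom (fun _ => T) s).ker).map
      (Pi.evalMonoidHom (fun _ => T) r)
    have hP : ∀ t, t ∈ P ↔ ∃ l ∈ L, l r = t ∧ ∀ s ∈ F, l s = 1 := fun t => by
      simp [P, Subgroup.mem_iInf, and_comm, and_left_comm]
    have : P.Normal := ⟨fun a ha g => by
      obtain ⟨x, hx, rfl, h3⟩ := (hP a).1 ha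
      obtain ⟨y, hy, rfl⟩ := hL r g
      exact (hP _).2 ⟨y * x * y⁻¹, mul_mem (mul_mem hy hx) (inv_mem hy), rfl,
        fun s hs => by simp [h3 s hs]⟩⟩
    exact (hP t).1 ((this.eq_bot_or_eq_top.resolve_left fun e =>
      h2 (e.le ((hP _).2 ⟨l, hl, rfl, h1⟩))).ge trivial)
  induction F using Finset.induction_on generalizing t with
  | empty => simpa using hL r t
  | insert s F _ ih =>
    obtain ⟨a, b, hab⟩ : ∃ a b : T, ⁅a, b⁆ ≠ 1 := by
      by_contra hc
      push Not at hc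
      exact hT ⟨⟨fun a b => commutatorElement_eq_one_iff_mul_comm.1 (hc a b)⟩⟩
    obtain ⟨x, hx, rfl, h1⟩ := ih (fun s hs => hF s (Finset.mem_insert_of_mem hs)) a
    obtain ⟨y, hy, rfl, h2⟩ := key {s} (by simpa using hF s (Finset.mem_insert_self _ _)) b
    refine key _ ⟨⁅x, y⁆, mul_mem (mul_mem (mul_mem hx hy) (inv_mem hx)) (inv_mem hy),
      fun u hu => ?_, hab⟩ t
    rcases Finset.mem_insert.1 hu with rfl | hu
    · simp [commutatorElement_def, h2]
    · simp [commutatorElement_def, h1 u hu]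

/-- Scott's lemma: a subdirect subgroup is a product of full diagonal strips. -/
theorem exists_strips [Finite ι] {L : Subgroup (ι → T)} (hL : ∀ i t, ∃ l ∈ L, l i = t) :
    ∃ (c : ι → ι) (e : (ι → T) ≃* (ι → T)),
      (∀ i j, c i = c j ↔ ∀ l ∈ L, l i = 1 → l j = 1) ∧
      ∀ x, x ∈ L ↔ ∀ i j, c i = c j → e x i = e x j := by
  classical
  let π : ι → L →* T := fun i => (Pi.evalMonoidHom (fun _ => T) i).comp L.subtype
  have hπ : ∀ i, Function.Surjective (π i) := fun i t => let ⟨l, hl, e⟩ := hL i t; ⟨⟨l, hl⟩, e⟩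
  have h1 : ∀ i j, (∀ l ∈ L, l i = 1 → l j = 1) → ∃ α : T ≃* T, ∀ l ∈ L, l j = α (l i) :=
    fun i j h => (exists_aut (hπ i) (hπ j) fun l hl => h l l.2 hl).imp fun _ h l hl => h ⟨l, hl⟩
  let s : Setoid ι := ⟨fun i j => ∀ l ∈ L, l i = 1 → l j = 1, fun _ _ _ h => h, fun {i j} h => by
    obtain ⟨α, hα⟩ := h1 i j h
    exact fun l hl e => by simpa [hα l hl] using e, fun h k l hl e => k l hl (h l hl e)⟩
  let c : ι → ι := fun i => (Quotient.mk s i).out
  have hc : ∀ i j, c i = c j ↔ ∀ l ∈ L, l i = 1 → l j = 1 := fun i j =>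
    Quotient.out_inj.trans Quotient.eq
  choose β hβ using fun i => h1 i (c i) (s.symm (Quotient.mk_out i))
  refine ⟨c, MulEquiv.piCongrRight β, hc, fun x => ⟨fun hx i j h => ?_, fun hx => ?_⟩⟩
  · simp [← hβ _ x hx, h]
  haveI := Fintype.ofFinite ι
  suffices ∀ F : Finset ι, ∃ l ∈ L, ∀ i ∈ F, l i = x i by
    obtain ⟨l, hl, h⟩ := this Finset.univ
    exact (funext fun i => h i (Finset.mem_univ i) : l = x) ▸ hl
  intro F
  induction F using Finset.induction_on with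
  | empty => exact ⟨1, one_mem _, by simp⟩
  | insert r F _ ih =>
    obtain ⟨l, hl, h⟩ := ih
    by_cases hr : l r = x r
    · exact ⟨l, hl, by simpa [hr] using h⟩
    obtain ⟨y, hy, h2, h3⟩ := exists_mem_of_subdirect hT hL r F (fun s hs => by
      by_contra hn
      push Not at hn
      have h4 := (hc s r).2 hn
      refine hr ((β r).injective ?_)
      rw [← hβ r l hl, ← h4, hβ s l hl, h s hs]
      exact hx s r h4) ((l r)⁻¹ * x r)
    refine ⟨l * y, mul_mem hl hy, fun i hi => ?_⟩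
    rcases Finset.mem_insert.1 hi with rfl | hi
    · simp [h2]
    · simp [h3 i hi, h i hi]

/-- Automorphisms of a direct power permute the coordinates. -/
theorem exists_perm [Finite ι] (φ : (ι → T) ≃* (ι → T)) :
    ∃ (τ : Equiv.Perm ι) (α : ι → T ≃* T), ∀ x j, φ x j = α j (x (τ j)) := by
  classical
  choose τ α h using fun j => exists_coord hT (f := (Pi.evalMonoidHom (fun _ => T) j).comp
    φ.toMonoidHom)
    ((Function.surjective_eval j).comp φ.surjective)
  refine ⟨Equiv.ofBijective τ (Finite.surjective_iff_bijective.1 fun i => by_contra fun hi => ?_),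
    α, fun x j => h j x⟩
  obtain ⟨t, ht⟩ := exists_ne (1 : T)
  have : φ (Pi.mulSingle i t) = 1 := funext fun j => (h j _).trans (by
    rw [Pi.mulSingle_eq_of_ne fun e => hi ⟨j, e⟩]; simp)
  exact ht (by simpa using this)

/-- The core of the O'Nan–Scott theorem, in coordinates. -/
theorem core [Finite ι] {K : Type*} [Group K] (φ : K →* MulAut (ι → T)) {L : Subgroup (ι → T)}
    (hL : ∀ k, ∀ x ∈ L, φ k x ∈ L) (hL' : L ≠ ⊤)
    (hmin : ∀ M : Subgroup (ι → T), M.Normal → (∀ k, ∀ x ∈ M, φ k x ∈ M) → M = ⊥ ∨ M = ⊤)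
    (hmax : ∀ X, L ≤ X → (∀ k, ∀ x ∈ X, φ k x ∈ X) → X = L ∨ X = ⊤) :
    (∃ R : ι → Subgroup T, (∀ i, R i ≠ ⊤) ∧ ∀ x, x ∈ L ↔ ∀ i, x i ∈ R i) ∨
    ∃ (e : (ι → T) ≃* (ι → T)) (k : ℕ) (c : ι → ι), 2 ≤ k ∧
      (∀ j, Nat.card {i // c i = j} = k ∨ Nat.card {i // c i = j} = 0) ∧
      ∀ x, x ∈ L ↔ ∀ i j, c i = c j → e x i = e x j := by
  classical
  choose τ α hτ using fun k => exists_perm hT (φ k)
  obtain ⟨t, ht⟩ := exists_ne (1 : T)
  have hu : ∀ k j i, (∀ x, x i ≠ 1 → φ k x j ≠ 1) → τ k j = i := fun k j i h => by_contra fun e =>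
    h (Pi.mulSingle i t) (by simpa) (by rw [hτ, Pi.mulSingle_eq_of_ne e]; simp)
  have htr : ∀ j i, ∃ k, τ k j = i := fun j i => by
    let M : Subgroup (ι → T) := ⨅ k, (Pi.evalMonoidHom (fun _ => T) (τ k j)).ker
    have hM : ∀ x, x ∈ M ↔ ∀ k, x (τ k j) = 1 := fun x => by simp [M, Subgroup.mem_iInf]
    rcases hmin M (Subgroup.normal_iInf_normal fun _ => inferInstance) fun k x hx => (hM _).2
      fun l => by
        rw [hτ, ← hu (l * k) j (τ k (τ l j)) fun y hy => by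
          rw [map_mul, MulAut.mul_apply, hτ, hτ]; simpa using hy, (hM x).1 hx]
        simp with h | h
    · by_contra hc
      push Not at hc
      exact ht (by simpa [h] using (hM (Pi.mulSingle i t)).2 fun k => by simp [hc k])
    · exact absurd ((hM fun _ => t).1 (h.ge trivial) 1) ht
  let R : ι → Subgroup T := fun i => L.map (Pi.evalMonoidHom (fun _ => T) i)
  have hR : ∀ k j s, s ∈ R (τ k j) → α k j s ∈ R j := by
    rintro k j _ ⟨l, hl, rfl⟩
    exact ⟨_, hL k l hl, hτ k l j⟩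
  by_cases h0 : ∀ i, R i ≠ ⊤
  · refine Or.inl ⟨R, h0, fun x => ?_⟩
    rcases hmax (Subgroup.pi Set.univ R) (fun l hl i _ => ⟨l, hl, rfl⟩)
      (fun k x hx i _ => hτ k x i ▸ hR k i _ (hx _ trivial)) with h | h
    · simp [← h, Subgroup.mem_pi]
    · refine absurd (eq_top_iff.2 fun x _ => ?_) hL'
      rcases isEmpty_or_nonempty ι with _ | ⟨⟨i⟩⟩
      · exact Subsingleton.elim 1 x ▸ one_mem L
      · exact absurd (eq_top_iff.2 fun s _ => h.ge (Subgroup.mem_top fun _ => s) i trivial) (h0 i)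
  push Not at h0
  obtain ⟨i₀, h0⟩ := h0
  have hs : ∀ j s, ∃ l ∈ L, l j = s := fun j s => by
    obtain ⟨k, hk⟩ := htr j i₀
    simpa [R] using hR k j ((α k j).symm s) (hk ▸ h0.ge trivial)
  obtain ⟨c, e, hc, he⟩ := exists_strips hT hs
  have hle : ∀ a b, Nat.card {i // c i = c a} ≤ Nat.card {i // c i = c b} := fun a b => by
    obtain ⟨k, rfl⟩ := htr a b
    refine Nat.card_le_card_of_injective (fun i => ⟨τ k i, (hc _ _).2 fun l hl h => ?_⟩)
      fun _ _ h => Subtype.ext ((τ k).injective (congrArg Subtype.val h))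
    simpa [hτ] using (hc _ _).1 i.2 _ (hL k l hl) (by simp [hτ, h])
  refine Or.inr ⟨e, Nat.card {i // c i = c i₀}, c, by_contra fun h => hL' (eq_top_iff.2 fun x _ =>
    (he x).2 fun i j hij => ?_), fun j => ?_, he⟩
  · haveI := Finite.card_le_one_iff_subsingleton.1 ((hle j i₀).trans (by omega : _ ≤ 1))
    rw [show i = j from congrArg Subtype.val (Subsingleton.elim (⟨i, hij⟩ : {i // c i = c j})
      ⟨j, rfl⟩)]
  · by_cases hj : ∃ a, c a = j
    · obtain ⟨a, rfl⟩ := hj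
      exact Or.inl ((hle _ _).antisymm (hle _ _))
    · haveI : IsEmpty {i // c i = j} := ⟨fun i => hj ⟨i, i.2⟩⟩
      simp

end Cfsg.Agent.Perm.Scott
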